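-- TEAM PROJECT S1444 (B-G Theorem 3.6), package P12 (LemmaFaith).
import Mathlib
import Cfsg.Agent.Lib.Helper23.BG36.Defs2

set_option autoImplicit false
set_option linter.style.haveILetI false

namespace Cfsg.Agent.Lib.Helper80.BG36F

universe u
variable {X : Type u} [Group X]

open Subgroup

/-- Conjugation preserves the order of an element. -/
theorem orderOf_conj_eq (g x : X) : orderOf (g * x * g⁻¹) = orderOf x := by
  have h := orderOf_injective (MulAut.conj g).toMonoidHom (MulAut.conj g).injective x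
  simpa using h

/-- If `g` normalizes `V` then `g` normalizes the centralizer of `V`. -/
theorem conj_mem_centralizer (V : Subgroup X) (g : X) (hg : g ∈ normalizer (V : Set X)) (x : X)
    (hx : x ∈ centralizer (V : Set X)) : g * x * g⁻¹ ∈ centralizer (V : Set X) := by
  rw [mem_centralizer_iff] at hx ⊢
  intro v hv
  have hv' : g⁻¹ * v * g ∈ (V : Set X) := by
    have := (mem_normalizer_iff.mp (inv_mem hg) v).mp hv
    simpa using this
  have h1 := hx _ hv'
  calc v * (g * x * g⁻¹) = g * ((g⁻¹ * v * g) * x) * g⁻¹ := by group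
    _ = g * (x * (g⁻¹ * v * g)) * g⁻¹ := by rw [h1]
    _ = g * x * g⁻¹ * v := by group

/-- A finite group `C` with a central `p`-subgroup `V` of index prime to `p`: the set of
`p'`-elements of `C` is a subgroup `D` with `|D| · |V| = |C|`. -/
theorem exists_pprime_part [Finite X] (p : ℕ) [Fact p.Prime] (C V : Subgroup X) (hVC : V ≤ C)
    (hV : IsPGroup p V) (hcen : ∀ c ∈ C, ∀ v ∈ V, c * v = v * c) (hidx : ¬ p ∣ V.relIndex C) :
    ∃ D : Subgroup X, D ≤ C ∧ (∀ x, x ∈ D ↔ x ∈ C ∧ (orderOf x).Coprime p) ∧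
      Nat.card D * Nat.card V = Nat.card C ∧ (Nat.card D).Coprime p := by
  have hV' : IsPGroup p (V.subgroupOf C) := hV.comap_subtype
  obtain ⟨P, hP⟩ : ∃ P : Sylow p ↥C, (P : Subgroup ↥C) = V.subgroupOf C :=
    ⟨hV'.toSylow hidx, rfl⟩
  have hPc : normalizer ((P : Subgroup ↥C) : Set ↥C) ≤ centralizer ((P : Subgroup ↥C) : Set ↥C) := by
    intro c _
    rw [mem_centralizer_iff]
    intro v hv
    have hv' : v ∈ V.subgroupOf C := by rw [← hP]; exact hv
    rw [mem_subgroupOf] at hv'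
    apply Subtype.ext
    simp only [Subgroup.coe_mul]
    exact (hcen c c.2 v hv').symm
  have hcompl := MonoidHom.ker_transferSylow_isComplement' P hPc
  have hnd := MonoidHom.not_dvd_card_ker_transferSylow P hPc
  obtain ⟨K', hK'⟩ : ∃ K' : Subgroup ↥C, K' = (MonoidHom.transferSylow P hPc).ker := ⟨_, rfl⟩
  rw [← hK'] at hcompl hnd
  have hcardD : Nat.card ↥(K'.map C.subtype) = Nat.card ↥K' :=
    Nat.card_congr (K'.equivMapOfInjective C.subtype C.subtype_injective).symm.toEquiv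
  have hcardV : Nat.card ↥(P : Subgroup ↥C) = Nat.card ↥V := by
    rw [hP]
    exact Nat.card_congr (Subgroup.subgroupOfEquivOfLe hVC).toEquiv
  refine ⟨K'.map C.subtype, Subgroup.map_subtype_le K', ?_, ?_, ?_⟩
  · intro x
    constructor
    · rintro ⟨k, hk, rfl⟩
      refine ⟨k.2, ?_⟩
      have h1 : orderOf (C.subtype k) = orderOf k := Subgroup.orderOf_coe k
      have h2 : orderOf k = orderOf (⟨k, hk⟩ : ↥K') := (Subgroup.orderOf_mk k hk).symm
      have h3 : orderOf (⟨k, hk⟩ : ↥K') ∣ Nat.card ↥K' := orderOf_dvd_natCard _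
      rw [h1, h2]
      refine Nat.Coprime.coprime_dvd_left h3 ?_
      exact ((Nat.Prime.coprime_iff_not_dvd Fact.out).mpr hnd).symm
    · rintro ⟨hxC, hco⟩
      refine ⟨⟨x, hxC⟩, ?_, rfl⟩
      rw [SetLike.mem_coe, hK', MonoidHom.mem_ker]
      obtain ⟨f, hf⟩ : ∃ f : ↥C →* ↥(P : Subgroup ↥C), f = MonoidHom.transferSylow P hPc :=
        ⟨_, rfl⟩
      rw [← hf]
      have h1 : orderOf (f ⟨x, hxC⟩) ∣ orderOf (⟨x, hxC⟩ : ↥C) := orderOf_map_dvd f _
      have h2 : orderOf (⟨x, hxC⟩ : ↥C) = orderOf x := Subgroup.orderOf_mk x hxC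
      obtain ⟨k, hk⟩ := P.isPGroup' (f ⟨x, hxC⟩)
      have h3 : orderOf (f ⟨x, hxC⟩) ∣ p ^ k := orderOf_dvd_of_pow_eq_one hk
      have h4 : (orderOf x).Coprime (p ^ k) := Nat.Coprime.pow_right k hco
      have h5 : orderOf (f ⟨x, hxC⟩) = 1 :=
        Nat.eq_one_of_dvd_coprimes h4 (h2 ▸ h1) h3
      exact orderOf_eq_one_iff.mp h5
  · rw [hcardD, ← hcardV]
    exact hcompl.card_mul_card
  · rw [hcardD]
    exact ((Nat.Prime.coprime_iff_not_dvd Fact.out).mpr hnd).symm

theorem lemmaFaith : Cfsg.Agent.Lib.Helper23.BG36.LemmaFaith.{u} := by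
  intro X _ _ p hp V L Γ hVL hLΓ hΓV hΓL hV hcomm hidx hno
  haveI : Fact p.Prime := ⟨hp⟩
  obtain ⟨C, hC⟩ : ∃ C : Subgroup X, C = L ⊓ centralizer (V : Set X) := ⟨_, rfl⟩
  rw [← hC]
  have hVC : V ≤ C := by
    rw [hC]
    refine le_inf hVL ?_
    intro v hv
    rw [mem_centralizer_iff]
    intro w hw
    exact hcomm w hw v hv
  have hCL : C ≤ L := by rw [hC]; exact inf_le_left
  have hcen : ∀ c ∈ C, ∀ v ∈ V, c * v = v * c := by
    intro c hc v hv
    rw [hC] at hc
    have := mem_centralizer_iff.mp hc.2 v hv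
    exact this.symm
  have hidx' : ¬ p ∣ V.relIndex C := by
    intro hdvd
    have h1 : V.relIndex C ∣ V.relIndex L :=
      Dvd.intro _ (Subgroup.relIndex_mul_relIndex V C L hVC hCL)
    have h2 : p ∣ V.relIndex L := hdvd.trans h1
    have h3 : p ∣ Nat.gcd (V.relIndex L) p := Nat.dvd_gcd h2 dvd_rfl
    rw [hidx] at h3
    exact hp.one_lt.ne' (Nat.dvd_one.mp h3)
  obtain ⟨D, hDC, hDmem, hDcard, hDcop⟩ := exists_pprime_part p C V hVC hV hcen hidx'
  have hΓC : ∀ g ∈ Γ, ∀ x ∈ C, g * x * g⁻¹ ∈ C := by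
    intro g hg x hx
    rw [hC] at hx ⊢
    refine ⟨(mem_normalizer_iff.mp (hΓL hg) x).mp hx.1, ?_⟩
    exact conj_mem_centralizer V g (hΓV hg) x hx.2
  have hΓD : Γ ≤ normalizer (D : Set X) := by
    intro g hg
    rw [mem_normalizer_iff]
    intro x
    constructor
    · intro hx
      have hx' := (hDmem x).mp hx
      exact (hDmem _).mpr ⟨hΓC g hg x hx'.1, by rw [orderOf_conj_eq]; exact hx'.2⟩
    · intro hx
      have hx' := (hDmem _).mp hx
      rw [orderOf_conj_eq] at hx'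
      refine (hDmem x).mpr ⟨?_, hx'.2⟩
      have := hΓC g⁻¹ (inv_mem hg) _ hx'.1
      simpa [mul_assoc] using this
  have hD1 : D = ⊥ := hno D (hDC.trans hCL) hΓD hDcop
  have hcard : Nat.card ↥V = Nat.card ↥C := by
    rw [← hDcard, hD1]
    simp
  exact (Subgroup.eq_of_le_of_card_ge hVC hcard.ge).symm

end Cfsg.Agent.Lib.Helper80.BG36F
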