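-- TEAM PROJECT S1444 (B-G Theorem 3.6), package P3 (LemmaZ): the Z-group case.
import Mathlib
import Cfsg.Agent.Lib.Helper23.BG36.Defs

set_option autoImplicit false
set_option linter.style.haveILetI false

namespace Cfsg.Agent.Lib.Helper80.BG36Z

universe u
variable {X : Type u} [Group X]

/-- Conjugation by an element of the normalizer, as an endomorphism of the subgroup. -/
def conjEnd (A : Subgroup X) (g : X) (hg : g ∈ Subgroup.normalizer (A : Set X)) : ↥A →* ↥A where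
  toFun a := ⟨g * a * g⁻¹, (Subgroup.mem_normalizer_iff.mp hg a).mp a.2⟩
  map_one' := by ext; simp
  map_mul' a b := by ext; simp [mul_assoc]

theorem conjEnd_coe (A : Subgroup X) (g : X) (hg : g ∈ Subgroup.normalizer (A : Set X)) (a : ↥A) :
    ((conjEnd A g hg a : ↥A) : X) = g * a * g⁻¹ := rfl

/-- Conjugations by two normalizing elements commute on a cyclic subgroup. -/
theorem comm_cyc (C : Subgroup X) [IsCyclic ↥C] (g h : X)
    (hg : g ∈ Subgroup.normalizer (C : Set X)) (hh : h ∈ Subgroup.normalizer (C : Set X)) (c : ↥C) :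
    conjEnd C g hg (conjEnd C h hh c) = conjEnd C h hh (conjEnd C g hg c) := by
  obtain ⟨i, hi⟩ := MonoidHom.map_cyclic (conjEnd C g hg)
  obtain ⟨j, hj⟩ := MonoidHom.map_cyclic (conjEnd C h hh)
  rw [hj, hi, hi, hj, ← zpow_mul, ← zpow_mul, mul_comm]

/-- Conjugations by two normalizing elements commute modulo an invariant normal subgroup with
cyclic quotient. -/
theorem comm_mod (A : Subgroup X) (B : Subgroup ↥A) [B.Normal] [IsCyclic (↥A ⧸ B)]
    (g h : X) (hg : g ∈ Subgroup.normalizer (A : Set X)) (hh : h ∈ Subgroup.normalizer (A : Set X))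
    (hgB : ∀ a : ↥A, a ∈ B → conjEnd A g hg a ∈ B) (hhB : ∀ a : ↥A, a ∈ B → conjEnd A h hh a ∈ B)
    (a : ↥A) :
    (conjEnd A g hg (conjEnd A h hh a))⁻¹ * conjEnd A h hh (conjEnd A g hg a) ∈ B := by
  let cg : ↥A ⧸ B →* ↥A ⧸ B := QuotientGroup.map B B (conjEnd A g hg) (fun x hx => hgB x hx)
  let ch : ↥A ⧸ B →* ↥A ⧸ B := QuotientGroup.map B B (conjEnd A h hh) (fun x hx => hhB x hx)
  obtain ⟨i, hi⟩ := MonoidHom.map_cyclic cg
  obtain ⟨j, hj⟩ := MonoidHom.map_cyclic ch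
  have h1 : cg (ch (a : ↥A ⧸ B)) = ch (cg (a : ↥A ⧸ B)) := by
    rw [hj, hi, hi, hj, ← zpow_mul, ← zpow_mul, mul_comm]
  have h2 : ((conjEnd A g hg (conjEnd A h hh a) : ↥A) : ↥A ⧸ B)
      = ((conjEnd A h hh (conjEnd A g hg a) : ↥A) : ↥A ⧸ B) := h1
  exact QuotientGroup.eq.mp h2

/-- The subgroup of elements normalizing `Q` and acting trivially on `Q` modulo `D`. -/
def goodSub (Q D : Subgroup X)
    (hD : ∀ g ∈ Subgroup.normalizer (Q : Set X), ∀ d ∈ D, g * d * g⁻¹ ∈ D) : Subgroup X where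
  carrier := {g | g ∈ Subgroup.normalizer (Q : Set X) ∧ ∀ x ∈ Q, g * x * g⁻¹ * x⁻¹ ∈ D}
  one_mem' := ⟨Subgroup.one_mem _, fun x _ => by simp⟩
  mul_mem' := by
    rintro g h ⟨hg, hg'⟩ ⟨hh, hh'⟩
    refine ⟨Subgroup.mul_mem _ hg hh, fun x hx => ?_⟩
    have e : g * h * x * (g * h)⁻¹ * x⁻¹ = g * (h * x * h⁻¹ * x⁻¹) * g⁻¹ * (g * x * g⁻¹ * x⁻¹) := by
      group
    rw [e]
    exact Subgroup.mul_mem _ (hD g hg _ (hh' x hx)) (hg' x hx)
  inv_mem' := by
    rintro g ⟨hg, hg'⟩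
    have hgi : g⁻¹ ∈ Subgroup.normalizer (Q : Set X) := Subgroup.inv_mem _ hg
    refine ⟨hgi, fun x hx => ?_⟩
    have hy : g⁻¹ * x * g ∈ Q := by
      have := (Subgroup.mem_normalizer_iff.mp hgi x).mp hx
      simpa using this
    have h1 := hg' _ hy
    have e : g⁻¹ * x * g⁻¹⁻¹ * x⁻¹ = (g * (g⁻¹ * x * g) * g⁻¹ * (g⁻¹ * x * g)⁻¹)⁻¹ := by group
    rw [e]
    exact Subgroup.inv_mem _ h1

theorem lemmaZ : Cfsg.Agent.Lib.Helper23.BG36.LemmaZ.{u} := by
  intro X _ _ p hp Q T N R hQN hTN hNQ hRN hRQ hNR hZ hT hcop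
  -- the derived subgroup of `Q`, inside `Q` and inside `X`
  obtain ⟨D', hD'⟩ : ∃ D' : Subgroup ↥Q, D' = commutator ↥Q := ⟨_, rfl⟩
  subst hD'
  obtain ⟨D, hDdef⟩ : ∃ D : Subgroup X, D = (commutator ↥Q).map Q.subtype := ⟨_, rfl⟩
  have hD'cyc : IsCyclic ↥(commutator ↥Q) := IsZGroup.isCyclic_commutator ↥Q
  have hDcyc : IsCyclic ↥D := by
    rw [hDdef]
    exact isCyclic_of_surjective ((commutator ↥Q).equivMapOfInjective Q.subtype Q.subtype_injective)
      ((commutator ↥Q).equivMapOfInjective Q.subtype Q.subtype_injective).surjective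
  have hqc : IsCyclic (↥Q ⧸ commutator ↥Q) := inferInstanceAs (IsCyclic (Abelianization ↥Q))
  have hDQ : D ≤ Q := by
    rw [hDdef]; exact Subgroup.map_subtype_le (commutator ↥Q)
  have memD : ∀ a : ↥Q, a ∈ commutator ↥Q ↔ (a : X) ∈ D := by
    intro a
    rw [hDdef]
    constructor
    · intro ha; exact ⟨a, ha, rfl⟩
    · rintro ⟨b, hb, hba⟩
      have : b = a := Subtype.ext hba
      rwa [← this]
  -- `D'` is invariant under the conjugation endomorphisms
  have hD'inv : ∀ (g : X) (hg : g ∈ Subgroup.normalizer (Q : Set X)) (a : ↥Q), a ∈ commutator ↥Q →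
      conjEnd Q g hg a ∈ commutator ↥Q := by
    intro g hg a ha
    have h1 : (commutator ↥Q).map (conjEnd Q g hg) ≤ commutator ↥Q := by
      rw [commutator_def, Subgroup.map_commutator]
      exact Subgroup.commutator_mono le_top le_top
    exact h1 ⟨a, ha, rfl⟩
  have hDinv : ∀ g ∈ Subgroup.normalizer (Q : Set X), ∀ d ∈ D, g * d * g⁻¹ ∈ D := by
    intro g hg d hd
    have hdQ : d ∈ Q := hDQ hd
    have h1 := hD'inv g hg ⟨d, hdQ⟩ ((memD ⟨d, hdQ⟩).mpr hd)
    exact (memD _).mp h1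
  have hnormD : ∀ g ∈ Subgroup.normalizer (Q : Set X), g ∈ Subgroup.normalizer (D : Set X) := by
    intro g hg
    rw [Subgroup.mem_normalizer_iff]
    intro d
    constructor
    · exact hDinv g hg d
    · intro h
      have := hDinv g⁻¹ (Subgroup.inv_mem _ hg) _ h
      simpa [mul_assoc] using this
  -- commutators of normalizing elements centralize `D`
  have step1 : ∀ g ∈ Subgroup.normalizer (Q : Set X), ∀ h ∈ Subgroup.normalizer (Q : Set X),
      ∀ d ∈ D, (g * h * g⁻¹ * h⁻¹) * d = d * (g * h * g⁻¹ * h⁻¹) := by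
    intro g hg h hh d hd
    have hgD := hnormD g hg
    have hhD := hnormD h hh
    have hd' : g⁻¹ * h⁻¹ * d * h * g ∈ D := by
      have h1 := hDinv h⁻¹ (Subgroup.inv_mem _ hh) d hd
      have h2 := hDinv g⁻¹ (Subgroup.inv_mem _ hg) _ h1
      simpa [mul_assoc] using h2
    have key := comm_cyc D g h hgD hhD ⟨_, hd'⟩
    have key' := congrArg (fun z : ↥D => (z : X)) key
    simp only [conjEnd_coe] at key'
    have e1 : g * (h * (g⁻¹ * h⁻¹ * d * h * g) * h⁻¹) * g⁻¹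
        = (g * h * g⁻¹ * h⁻¹) * d * (g * h * g⁻¹ * h⁻¹)⁻¹ := by group
    have e2 : h * (g * (g⁻¹ * h⁻¹ * d * h * g) * g⁻¹) * h⁻¹ = d := by group
    rw [e1, e2] at key'
    calc (g * h * g⁻¹ * h⁻¹) * d
        = ((g * h * g⁻¹ * h⁻¹) * d * (g * h * g⁻¹ * h⁻¹)⁻¹) * (g * h * g⁻¹ * h⁻¹) := by group
      _ = d * (g * h * g⁻¹ * h⁻¹) := by rw [key']
  -- commutators of normalizing elements act trivially on `Q` modulo `D`
  have step2 : ∀ g ∈ Subgroup.normalizer (Q : Set X), ∀ h ∈ Subgroup.normalizer (Q : Set X),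
      ∀ x ∈ Q, (g * h * g⁻¹ * h⁻¹) * x * (g * h * g⁻¹ * h⁻¹)⁻¹ * x⁻¹ ∈ D := by
    intro g hg h hh x hx
    have ha : g⁻¹ * h⁻¹ * x⁻¹ * h * g ∈ Q := by
      have hinv : (h * g)⁻¹ ∈ Subgroup.normalizer (Q : Set X) :=
        Subgroup.inv_mem _ (Subgroup.mul_mem _ hh hg)
      have := (Subgroup.mem_normalizer_iff.mp hinv x⁻¹).mp (Subgroup.inv_mem _ hx)
      simpa [mul_assoc] using this
    have key := comm_mod Q (commutator ↥Q) g h hg hh (hD'inv g hg) (hD'inv h hh) ⟨_, ha⟩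
    have key' := (memD _).mp key
    have e : (((conjEnd Q g hg (conjEnd Q h hh ⟨_, ha⟩))⁻¹ *
        conjEnd Q h hh (conjEnd Q g hg ⟨_, ha⟩) : ↥Q) : X)
        = (g * h * g⁻¹ * h⁻¹) * x * (g * h * g⁻¹ * h⁻¹)⁻¹ * x⁻¹ := by
      simp only [Subgroup.coe_mul, Subgroup.coe_inv, conjEnd_coe]
      group
    rw [e] at key'
    exact key'
  -- the two subgroups containing `⁅N, R⁆`
  have hNRc : ⁅N, R⁆ ≤ Subgroup.centralizer (D : Set X) := by
    rw [Subgroup.commutator_le]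
    intro n hn ρ hρ
    rw [Subgroup.mem_centralizer_iff]
    intro d hd
    rw [commutatorElement_def]
    exact (step1 n (hNQ hn) ρ (hRQ hρ) d hd).symm
  have hNRg : ⁅N, R⁆ ≤ goodSub Q D hDinv := by
    rw [Subgroup.commutator_le]
    intro n hn ρ hρ
    rw [commutatorElement_def]
    exact ⟨Subgroup.mul_mem _ (Subgroup.mul_mem _ (Subgroup.mul_mem _ (hNQ hn) (hRQ hρ))
      (Subgroup.inv_mem _ (hNQ hn))) (Subgroup.inv_mem _ (hRQ hρ)),
      fun x hx => step2 n (hNQ hn) ρ (hRQ hρ) x hx⟩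
  -- now the coprime action argument
  intro t ht
  rw [Subgroup.mem_centralizer_iff]
  intro x hx
  have htN : t ∈ ⁅N, R⁆ := hNR (hTN ht)
  have htc := hNRc htN
  have htg := hNRg htN
  rw [Subgroup.mem_centralizer_iff] at htc
  obtain ⟨c, hc⟩ : ∃ c, c = t * x * t⁻¹ * x⁻¹ := ⟨_, rfl⟩
  have hcD : c ∈ D := by rw [hc]; exact htg.2 x hx
  have hct : c * t = t * c := htc c hcD
  have hpow : ∀ k : ℕ, t ^ k * x * (t ^ k)⁻¹ = c ^ k * x := by
    intro k
    induction k with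
    | zero => simp
    | succ k ih =>
      have hck : c ^ k * t = t * c ^ k := by
        have : Commute c t := hct
        exact (this.pow_left k).eq
      calc t ^ (k + 1) * x * (t ^ (k + 1))⁻¹
          = t * (t ^ k * x * (t ^ k)⁻¹) * t⁻¹ := by rw [pow_succ']; group
        _ = t * (c ^ k * x) * t⁻¹ := by rw [ih]
        _ = (t * c ^ k) * (x * t⁻¹) := by group
        _ = (c ^ k * t) * (x * t⁻¹) := by rw [hck]
        _ = c ^ k * (t * x * t⁻¹ * x⁻¹) * x := by group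
        _ = c ^ (k + 1) * x := by rw [← hc, pow_succ]
  obtain ⟨k, hk⟩ := hT ⟨t, ht⟩
  have htk : t ^ (p ^ k) = 1 := by
    have := congrArg Subtype.val hk
    simpa only [Subgroup.coe_pow, Subgroup.coe_one] using this
  have hck : c ^ (p ^ k) = 1 := by
    have := hpow (p ^ k)
    rw [htk] at this
    simpa using this.symm
  have hcQ : c ^ (Nat.card ↥Q) = 1 := by
    have h1 : (⟨c, hDQ hcD⟩ : ↥Q) ^ (Nat.card ↥Q) = 1 := pow_card_eq_one'
    have := congrArg Subtype.val h1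
    simpa only [Subgroup.coe_pow, Subgroup.coe_one] using this
  have hc1 : c = 1 := by
    have h1 : orderOf c ∣ p ^ k := orderOf_dvd_of_pow_eq_one hck
    have h2 : orderOf c ∣ Nat.card ↥Q := orderOf_dvd_of_pow_eq_one hcQ
    have h3 : (Nat.card ↥Q).Coprime (p ^ k) := Nat.Coprime.pow_right k hcop
    have h4 : orderOf c = 1 := Nat.eq_one_of_dvd_coprimes h3 h2 h1
    exact orderOf_eq_one_iff.mp h4
  rw [hc1] at hc
  have : t * x = x * t := by
    have h5 : t * x * t⁻¹ * x⁻¹ = 1 := hc.symm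
    calc t * x = (t * x * t⁻¹ * x⁻¹) * (x * t) := by group
      _ = x * t := by rw [h5, one_mul]
  exact this.symm

end Cfsg.Agent.Lib.Helper80.BG36Z
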