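import Mathlib
import Cfsg.Prelude.Def_Characters
import Cfsg.Prelude.Def_Blocks
import Cfsg.Agent.Lib.Helper80.Eigen
import Cfsg.Agent.Lib.Helper80.Schur
import Cfsg.Agent.Lib.Helper80.CharKer
import Cfsg.Agent.Lib.Helper80.Orthogonality
import Cfsg.Agent.Lib.Helper80.CharOps
import Cfsg.Agent.Lib.Helper80.SchurBound
import Cfsg.Agent.Lib.Helper15.LinChar
import Cfsg.Agent.Lib.Helper75.GaloisChar

/-!
# Blichfeldt's theorem on linear groups: the character-theoretic part

For a finite group with a faithful character of degree `n` and primes `p ≠ q` larger than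
`n + 1` dividing the group order, some element has order divisible by `p * q`.
-/

set_option autoImplicit false
set_option linter.style.haveILetI false

open scoped ComplexConjugate

namespace Cfsg.Agent.Lib.Helper80

universe u

section Blichfeldt

variable {G : Type u} [Group G]

/-- `G` has a faithful character of degree `n`. -/
def FaithDeg (G : Type u) [Group G] (n : ℕ) : Prop :=
  ∃ χ : G → ℂ, Cfsg.IsCharacter G χ ∧ (∀ g : G, χ g = χ 1 → g = 1) ∧ Cfsg.charDegree χ = n

theorem FaithDeg.subgroup {n : ℕ} (h : FaithDeg G n) (H : Subgroup G) : FaithDeg H n := by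
  obtain ⟨χ, hχ, hf, hn⟩ := h
  refine ⟨fun x : H => χ x, isCharacter_restrict H hχ, ?_, ?_⟩
  · intro g hg
    exact Subtype.ext (hf _ hg)
  · exact hn

/-- An element lying in the kernel of every irreducible character of degree at most the degree
of a faithful character is trivial. -/
theorem eq_one_of_constituents [Finite G] {χ : G → ℂ} (hχ : Cfsg.IsCharacter G χ)
    (hf : ∀ g : G, χ g = χ 1 → g = 1) {d : ℕ} (hd : Cfsg.charDegree χ = d) (g : G)
    (h : ∀ ψ : G → ℂ, Cfsg.IsIrrCharacter G ψ → Cfsg.charDegree ψ ≤ d → ψ g = ψ 1) : g = 1 := by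
  classical
  haveI := Fintype.ofFinite G
  haveI : Fintype (Cfsg.IrrCharacter G) := Fintype.ofFinite _
  obtain ⟨m, hm, hexp⟩ := character_expansion hχ
  have hsum := charDegree_eq_sum hχ m hexp
  apply hf
  rw [hexp]
  simp only [Finset.sum_apply, Pi.smul_apply, smul_eq_mul]
  refine Finset.sum_congr rfl (fun ψ _ => ?_)
  by_cases hmψ : m ψ = 0
  · rw [hmψ]; simp
  · have h1 : m ψ * Cfsg.charDegree ψ.1 ≤ d := by
      rw [← hd, hsum]
      exact Finset.single_le_sum (f := fun ψ : Cfsg.IrrCharacter G => m ψ * Cfsg.charDegree ψ.1)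
        (fun _ _ => Nat.zero_le _) (Finset.mem_univ ψ)
    have h2 : Cfsg.charDegree ψ.1 ≤ m ψ * Cfsg.charDegree ψ.1 :=
      Nat.le_mul_of_pos_left _ (Nat.pos_of_ne_zero hmψ)
    rw [h ψ.1 ψ.2 (h2.trans h1)]

/-- A group with a faithful character of degree `n` all of whose prime divisors exceed `n` is
abelian. -/
theorem comm_of_primes_gt [Finite G] {n : ℕ} (h : FaithDeg G n)
    (hp : ∀ q : ℕ, q.Prime → q ∣ Nat.card G → n < q) (a b : G) : a * b = b * a := by
  obtain ⟨χ, hχ, hf, hn⟩ := h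
  have h1 : a * b * a⁻¹ * b⁻¹ = 1 := by
    apply eq_one_of_constituents hχ hf hn
    intro ψ hψ hdeg
    have hψc := isCharacter_of_isIrrCharacter hψ
    have hdeg1 : Cfsg.charDegree ψ = 1 := by
      by_contra hne
      obtain ⟨q, hq, hqd⟩ := Nat.exists_prime_and_dvd hne
      have h1 : q ≤ Cfsg.charDegree ψ := Nat.le_of_dvd (charDegree_pos hψ) hqd
      have h2 := hp q hq (hqd.trans (charDegree_dvd_card hψ))
      omega
    have hψ1 : ψ 1 = 1 := by
      rw [char_one_eq_charDegree hψc, hdeg1]; simp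
    rw [Cfsg.Agent.Lib.Helper15.linChar_mul hψc hψ1,
      Cfsg.Agent.Lib.Helper15.linChar_mul hψc hψ1,
      Cfsg.Agent.Lib.Helper15.linChar_mul hψc hψ1,
      Cfsg.Agent.Lib.Helper15.linChar_inv hψc hψ1,
      Cfsg.Agent.Lib.Helper15.linChar_inv hψc hψ1, hψ1]
    have ha := Cfsg.Agent.Lib.Helper15.linChar_ne_zero hψc hψ1 a
    have hb := Cfsg.Agent.Lib.Helper15.linChar_ne_zero hψc hψ1 b
    field_simp
  calc a * b = (a * b * a⁻¹ * b⁻¹) * (b * a) := by group
    _ = b * a := by rw [h1, one_mul]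

/-- A character of degree less than `p - 1` which takes the same value at all nontrivial powers
of an element `x` with `x ^ p = 1` has `x` in its kernel. -/
theorem char_eq_of_pow_stable [Finite G] {ψ : G → ℂ} (hψ : Cfsg.IsCharacter G ψ) (p : ℕ)
    (hp : p.Prime) (hd : Cfsg.charDegree ψ + 1 < p) (x : G) (hx : x ^ p = 1)
    (hst : ∀ j : ℕ, 0 < j → j < p → ψ (x ^ j) = ψ x) : ψ x = ψ 1 := by
  classical
  have hint := isIntegral_char_val hψ x
  obtain ⟨n, ρ, rfl⟩ := hψ
  rw [charDegree_char] at hd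
  obtain ⟨ι, hι, v, μ, h1, h2, -⟩ := exists_eigenbasis ρ x
  have hμp : ∀ i, μ i ^ p = 1 := by
    intro i
    obtain ⟨c, hc⟩ := orderOf_dvd_of_pow_eq_one hx
    rw [hc, pow_mul, h2 i, one_pow]
  have hpow : ∀ (j : ℕ) (i : ι), ρ (x ^ j) (v i) = μ i ^ j • v i := by
    intro j i
    induction j with
    | zero => simp
    | succ j ih =>
      rw [pow_succ, map_mul, Module.End.mul_apply, h1 i, map_smul, ih, smul_smul, pow_succ,
        mul_comm]
  have hchar : ∀ j : ℕ, ρ.character (x ^ j) = ∑ i, μ i ^ j := by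
    intro j
    unfold Representation.character
    exact trace_eq_sum_of_eigenbasis (ρ (x ^ j)) v _ (hpow j)
  have hcard : Fintype.card ι = n := by
    have := Module.finrank_eq_card_basis v
    simpa using this.symm
  obtain ⟨a₀, ha₀⟩ : ∃ a₀ : ℕ, a₀ = (Finset.univ.filter (fun i => μ i = 1)).card := ⟨_, rfl⟩
  have ha₀le : a₀ ≤ n := by
    rw [← hcard, ha₀]; exact Finset.card_le_univ _
  have hgeom : ∀ i, ∑ j ∈ Finset.range p, μ i ^ j = if μ i = 1 then (p : ℂ) else 0 := by
    intro i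
    split_ifs with hi
    · rw [hi]; simp
    · have := mul_geom_sum (μ i) p
      rw [hμp i, sub_self] at this
      rcases mul_eq_zero.mp this with h | h
      · exact absurd (sub_eq_zero.mp h) hi
      · exact h
  have hsum1 : ∑ j ∈ Finset.range p, ρ.character (x ^ j) = (p : ℂ) * a₀ := by
    simp_rw [hchar]
    rw [Finset.sum_comm]
    simp_rw [hgeom]
    rw [← Finset.sum_filter, Finset.sum_const, ha₀]
    simp [mul_comm]
  have hsum2 : ∑ j ∈ Finset.range p, ρ.character (x ^ j)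
      = (n : ℂ) + ((p : ℂ) - 1) * ρ.character x := by
    obtain ⟨p', rfl⟩ : ∃ p', p = p' + 1 := ⟨p - 1, by have := hp.pos; omega⟩
    rw [Finset.sum_range_succ', pow_zero, char_one_fin]
    have : ∀ j ∈ Finset.range p', ρ.character (x ^ (j + 1)) = ρ.character x := by
      intro j hj
      exact hst (j + 1) (by omega) (by have := Finset.mem_range.mp hj; omega)
    rw [Finset.sum_congr rfl this, Finset.sum_const, Finset.card_range]
    push_cast
    simp only [nsmul_eq_mul]
    ring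
  have hp1 : ((p : ℂ) - 1) ≠ 0 := by
    intro h0
    have h1 : (p : ℂ) = 1 := sub_eq_zero.mp h0
    have h2 : p = 1 := by exact_mod_cast h1
    exact hp.ne_one h2
  have hval : ρ.character x = (((p : ℚ) * a₀ - n) / ((p : ℚ) - 1) : ℚ) := by
    push_cast
    rw [eq_div_iff hp1]
    have := hsum1.symm.trans hsum2
    linear_combination -this
  obtain ⟨t, ht⟩ := exists_int_of_isIntegral_of_rat hint _ hval
  have heq : (n : ℤ) + ((p : ℤ) - 1) * t = (p : ℤ) * a₀ := by
    have := hsum2.symm.trans hsum1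
    rw [ht] at this
    exact_mod_cast this
  have hdvd : ((p - 1 : ℕ) : ℤ) ∣ ((n - a₀ : ℕ) : ℤ) := by
    refine ⟨a₀ - t, ?_⟩
    have hp' := hp.pos
    push_cast [Nat.sub_add_cancel, ha₀le, Nat.cast_sub ha₀le,
      Nat.cast_sub (show 1 ≤ p from hp')]
    linear_combination heq
  have hdvd' : (p - 1) ∣ (n - a₀) := Int.natCast_dvd_natCast.mp hdvd
  have hzero : n - a₀ = 0 := Nat.eq_zero_of_dvd_of_lt hdvd' (by omega)
  have han : a₀ = n := by omega
  have ht' : t = n := by
    rw [han] at heq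
    have hp2 : ((p : ℤ) - 1) ≠ 0 := by
      have := hp.one_lt
      omega
    have : ((p : ℤ) - 1) * (t - n) = 0 := by linear_combination heq
    rcases mul_eq_zero.mp this with h | h
    · exact absurd h hp2
    · omega
  rw [ht, ht', char_one_fin]
  simp

/-- For `j` prime to `p` there is an exponent `k` prime to `|G|` fixing all `p`-regular elements
and agreeing with `j` on elements of order dividing `p`. -/
theorem exists_coprime_pow [Finite G] (p : ℕ) (hp : p.Prime) (j : ℕ) (hj : ¬ p ∣ j) :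
    ∃ k : ℕ, k.Coprime (Nat.card G) ∧ (∀ g : G, ¬ p ∣ orderOf g → g ^ k = g) ∧
      ∀ x : G, x ^ p = 1 → x ^ k = x ^ j := by
  obtain ⟨e, m, hm, hcard⟩ :=
    Nat.exists_eq_pow_mul_and_not_dvd (Nat.card_pos (α := G)).ne' p hp.ne_one
  have hco : Nat.Coprime p m := (Nat.Prime.coprime_iff_not_dvd hp).mpr hm
  obtain ⟨k, hk1, hk2⟩ := Nat.chineseRemainder hco j 1
  refine ⟨k, ?_, ?_, ?_⟩
  · rw [hcard]
    apply Nat.Coprime.mul_right
    · apply Nat.Coprime.pow_right
      rw [Nat.coprime_comm]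
      apply (Nat.Prime.coprime_iff_not_dvd hp).mpr
      intro hpk
      exact hj ((hk1.dvd_iff (dvd_refl p)).mp hpk)
    · have := hk2.gcd_eq
      rw [Nat.Coprime, this]; simp
  · intro g hg
    have h1 : orderOf g ∣ p ^ e * m := hcard ▸ orderOf_dvd_natCard g
    have h2 : Nat.Coprime (orderOf g) (p ^ e) :=
      Nat.Coprime.pow_right e (Nat.Coprime.symm ((Nat.Prime.coprime_iff_not_dvd hp).mpr hg))
    have h3 : orderOf g ∣ m := h2.dvd_of_dvd_mul_left h1
    have h4 : k ≡ 1 [MOD orderOf g] := hk2.of_dvd h3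
    have := pow_eq_pow_iff_modEq.mpr h4
    rwa [pow_one] at this
  · intro x hx
    have h3 : orderOf x ∣ p := orderOf_dvd_of_pow_eq_one hx
    exact pow_eq_pow_iff_modEq.mpr (hk1.of_dvd h3)

theorem classInner_sub_right [Fintype G] (f ψ₁ ψ₂ : G → ℂ) :
    Cfsg.classInner f (ψ₁ - ψ₂) = Cfsg.classInner f ψ₁ - Cfsg.classInner f ψ₂ := by
  unfold Cfsg.classInner
  simp only [Pi.sub_apply, map_sub, mul_sub, Finset.sum_sub_distrib]

/-- If no element has order divisible by both `p` and `q`, an irreducible character is fixed by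
one of two Galois twists. -/
theorem pow_stable_dichotomy [Finite G] (p q : ℕ)
    (hreg : ∀ g : G, ¬ p ∣ orderOf g ∨ ¬ q ∣ orderOf g)
    {ψ : G → ℂ} (hψ : Cfsg.IsIrrCharacter G ψ) (k l : ℕ)
    (hk : k.Coprime (Nat.card G)) (hl : l.Coprime (Nat.card G))
    (hkp : ∀ g : G, ¬ p ∣ orderOf g → g ^ k = g)
    (hlq : ∀ g : G, ¬ q ∣ orderOf g → g ^ l = g) :
    (∀ g, ψ (g ^ k) = ψ g) ∨ (∀ g, ψ (g ^ l) = ψ g) := by
  classical
  haveI := Fintype.ofFinite G
  have hψk := Cfsg.Agent.Lib.Helper75.isIrrCharacter_pow hψ k hk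
  have hψl := Cfsg.Agent.Lib.Helper75.isIrrCharacter_pow hψ l hl
  by_contra hcon
  push Not at hcon
  obtain ⟨⟨g₁, hg₁⟩, ⟨g₂, hg₂⟩⟩ := hcon
  have hne1 : (fun g => ψ (g ^ k)) ≠ ψ := fun h => hg₁ (congrFun h g₁)
  have hne2 : ψ ≠ (fun g => ψ (g ^ l)) := fun h => hg₂ (congrFun h g₂).symm
  have h0 : Cfsg.classInner ((fun g => ψ (g ^ k)) - ψ) ((fun g => ψ (g ^ l)) - ψ) = 0 := by
    unfold Cfsg.classInner
    rw [Finset.sum_eq_zero, mul_zero]
    intro g _
    simp only [Pi.sub_apply]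
    rcases hreg g with h | h
    · rw [hkp g h, sub_self, zero_mul]
    · rw [hlq g h, sub_self, map_zero, mul_zero]
  rw [classInner_sub_left, classInner_sub_right, classInner_sub_right,
    classInner_irr_fun hψk hψl, classInner_irr_fun hψk hψ, classInner_irr_fun hψ hψl,
    classInner_irr_fun hψ hψ, if_neg hne1, if_neg hne2, if_pos rfl] at h0
  split_ifs at h0 <;> norm_num at h0

/-- In a group with a faithful character of degree `n`, for primes `p ≠ q` larger than `n + 1`
dividing the group order, some element has order divisible by both. -/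
theorem exists_orderOf_dvd_two_primes [Finite G] {n : ℕ} (h : FaithDeg G n) (p q : ℕ)
    (hp : p.Prime) (hq : q.Prime) (hpq : p ≠ q) (hnp : n + 1 < p) (hnq : n + 1 < q)
    (hpG : p ∣ Nat.card G) (hqG : q ∣ Nat.card G) :
    ∃ g : G, p ∣ orderOf g ∧ q ∣ orderOf g := by
  by_contra hno
  push Not at hno
  have hreg : ∀ g : G, ¬ p ∣ orderOf g ∨ ¬ q ∣ orderOf g := by
    intro g
    by_cases hg : p ∣ orderOf g
    · exact Or.inr (hno g hg)
    · exact Or.inl hg
  haveI : Fact p.Prime := ⟨hp⟩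
  haveI : Fact q.Prime := ⟨hq⟩
  obtain ⟨x, hx⟩ := exists_prime_orderOf_dvd_card' p hpG
  obtain ⟨y, hy⟩ := exists_prime_orderOf_dvd_card' q hqG
  obtain ⟨χ, hχ, hf, hn⟩ := h
  have hxp : x ^ p = 1 := by rw [← hx]; exact pow_orderOf_eq_one x
  have hyq : y ^ q = 1 := by rw [← hy]; exact pow_orderOf_eq_one y
  have key : ∀ ψ : G → ℂ, Cfsg.IsIrrCharacter G ψ → Cfsg.charDegree ψ ≤ n →
      ψ x = ψ 1 ∨ ψ y = ψ 1 := by
    intro ψ hψ hdeg
    have hψc := isCharacter_of_isIrrCharacter hψ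
    by_cases hst : ∀ k : ℕ, k.Coprime (Nat.card G) → (∀ g : G, ¬ p ∣ orderOf g → g ^ k = g) →
        ∀ g, ψ (g ^ k) = ψ g
    · left
      apply char_eq_of_pow_stable hψc p hp (by omega) x hxp
      intro j hj0 hjp
      have hpj : ¬ p ∣ j := fun hd => by have := Nat.le_of_dvd hj0 hd; omega
      obtain ⟨k, hk1, hk2, hk3⟩ := exists_coprime_pow (G := G) p hp j hpj
      rw [← hk3 x hxp]
      exact hst k hk1 hk2 x
    · right
      push Not at hst
      obtain ⟨k, hk1, hk2, g₀, hg₀⟩ := hst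
      apply char_eq_of_pow_stable hψc q hq (by omega) y hyq
      intro j hj0 hjq
      have hqj : ¬ q ∣ j := fun hd => by have := Nat.le_of_dvd hj0 hd; omega
      obtain ⟨l, hl1, hl2, hl3⟩ := exists_coprime_pow (G := G) q hq j hqj
      rw [← hl3 y hyq]
      rcases pow_stable_dichotomy p q hreg hψ k l hk1 hl1 hk2 hl2 with h | h
      · exact absurd (h g₀) hg₀
      · exact h y
  have hcomm : x * y * x⁻¹ * y⁻¹ = 1 := by
    apply eq_one_of_constituents hχ hf hn
    intro ψ hψ hdeg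
    have hmem := mem_irrKer ⟨ψ, hψ⟩
    rcases key ψ hψ hdeg with h | h
    · have hx' : x ∈ irrKer ⟨ψ, hψ⟩ := (hmem x).mpr h
      have : x * y * x⁻¹ * y⁻¹ ∈ irrKer ⟨ψ, hψ⟩ := by
        have h2 : y * x⁻¹ * y⁻¹ ∈ irrKer ⟨ψ, hψ⟩ :=
          (irrKer_normal _).conj_mem _ (inv_mem hx') y
        have h3 := mul_mem hx' h2
        have h4 : x * (y * x⁻¹ * y⁻¹) = x * y * x⁻¹ * y⁻¹ := by group
        rwa [h4] at h3
      exact (hmem _).mp this
    · have hy' : y ∈ irrKer ⟨ψ, hψ⟩ := (hmem y).mpr h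
      have : x * y * x⁻¹ * y⁻¹ ∈ irrKer ⟨ψ, hψ⟩ := by
        have h2 : x * y * x⁻¹ ∈ irrKer ⟨ψ, hψ⟩ := (irrKer_normal _).conj_mem _ hy' x
        exact mul_mem h2 (inv_mem hy')
      exact (hmem _).mp this
  have hxy : Commute x y := by
    show x * y = y * x
    calc x * y = (x * y * x⁻¹ * y⁻¹) * (y * x) := by group
      _ = y * x := by rw [hcomm, one_mul]
  have hcop : Nat.Coprime (orderOf x) (orderOf y) := by
    rw [hx, hy]; exact (Nat.coprime_primes hp hq).mpr hpq
  have hord : orderOf (x * y) = p * q := by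
    rw [hxy.orderOf_mul_eq_mul_orderOf_of_coprime hcop, hx, hy]
  exact hno (x * y) (hord ▸ dvd_mul_right p q) (hord ▸ dvd_mul_left q p)

/-- A central element of prime order `q` larger than the degree of a faithful character lies
outside a normal subgroup of `q`-power index. -/
theorem exists_normal_index_pow_of_central [Finite G] {n : ℕ} (h : FaithDeg G n) (q : ℕ)
    (hq : q.Prime) (hnq : n < q) (z : G) (hz : z ∈ Subgroup.center G) (hzq : orderOf z = q) :
    ∃ M : Subgroup G, M.Normal ∧ z ∉ M ∧ ∃ c : ℕ, M.index = q ^ c := by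
  classical
  haveI : Fact q.Prime := ⟨hq⟩
  obtain ⟨χ, hχ, hf, hn⟩ := h
  have hz1 : z ≠ 1 := by
    intro h1
    rw [h1, orderOf_one] at hzq
    exact hq.one_lt.ne hzq
  obtain ⟨ψ, hψ, hdeg, hψz⟩ : ∃ ψ : G → ℂ, Cfsg.IsIrrCharacter G ψ ∧
      Cfsg.charDegree ψ ≤ n ∧ ψ z ≠ ψ 1 := by
    by_contra hcon
    push Not at hcon
    exact hz1 (eq_one_of_constituents hχ hf hn z hcon)
  have hdpos' := charDegree_pos hψ
  obtain ⟨d, ρ, hirr, rfl⟩ := hψ
  haveI := hirr
  rw [charDegree_char] at hdeg hdpos'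
  obtain ⟨c, hc⟩ := schur_scalar ρ (ρ z) (fun g => by
    rw [← map_mul, ← map_mul, Subgroup.mem_center_iff.mp hz g])
  have hc1 : c ≠ 1 := by
    intro h1
    apply hψz
    rw [Representation.char_one]
    apply (char_eq_finrank_iff ρ z).mpr
    rw [hc, h1, one_smul]
  have hcq : c ^ q = 1 := by
    have h1 : (ρ z) ^ q = 1 := by rw [← map_pow, ← hzq, pow_orderOf_eq_one, map_one]
    rw [hc, smul_pow, one_pow] at h1
    have := congrArg (fun f : Module.End ℂ (Fin d → ℂ) => f (fun _ => 1) ⟨0, hdpos'⟩) h1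
    simpa using this
  obtain ⟨e, m, hm, hcard⟩ :=
    Nat.exists_eq_pow_mul_and_not_dvd (Nat.card_pos (α := G)).ne' q hq.ne_one
  let φ : G →* ℂ := (powMonoidHom m).comp (LinearMap.det.comp ρ)
  have hφ : ∀ g, φ g = (LinearMap.det (ρ g)) ^ m := fun g => rfl
  refine ⟨φ.ker, inferInstance, ?_, ?_⟩
  · rw [MonoidHom.mem_ker, hφ, hc, LinearMap.det_smul, map_one, mul_one, Module.finrank_fin_fun,
      ← pow_mul]
    intro h1
    have h2 : orderOf c = q := orderOf_eq_prime hcq hc1
    have h3 : q ∣ d * m := h2 ▸ orderOf_dvd_of_pow_eq_one h1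
    rcases (Nat.Prime.dvd_mul hq).mp h3 with h4 | h4
    · have := Nat.le_of_dvd hdpos' h4; omega
    · exact hm h4
  · have hpg : IsPGroup q (G ⧸ φ.ker) := by
      intro y
      obtain ⟨g, rfl⟩ := QuotientGroup.mk_surjective y
      refine ⟨e, ?_⟩
      rw [← QuotientGroup.mk_pow, QuotientGroup.eq_one_iff, MonoidHom.mem_ker, hφ, ← map_pow,
        ← map_pow, ← pow_mul, ← hcard, pow_card_eq_one', map_one, map_one]
    obtain ⟨c', hc'⟩ := IsPGroup.iff_card.mp hpg
    exact ⟨c', by rw [Subgroup.index_eq_card, hc']⟩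

end Blichfeldt

end Cfsg.Agent.Lib.Helper80
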