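import Mathlib
import Cfsg.Agent.Lib.Helper80.Blichfeldt1

/-!
# Blichfeldt's theorem on linear groups: the group-theoretic part

A finite group with a faithful character of degree `n` has an abelian Hall subgroup for the set
of primes larger than `n + 1`.
-/

set_option autoImplicit false
set_option linter.style.haveILetI false

namespace Cfsg.Agent.Lib.Helper80

universe u

section Blichfeldt2

variable {G : Type u} [Group G]

theorem factorization_card_of_not_dvd_index [Finite G] (K : Subgroup G) (p : ℕ)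
    (h : ¬ p ∣ K.index) : (Nat.card K).factorization p = (Nat.card G).factorization p := by
  rw [← K.card_mul_index, Nat.factorization_mul (Nat.card_pos).ne'
    Subgroup.index_ne_zero_of_finite, Finsupp.add_apply, Nat.factorization_eq_zero_of_not_dvd h,
    add_zero]

theorem not_dvd_index_of_pow_dvd_card [Finite G] (K : Subgroup G) (p : ℕ) (hp : p.Prime)
    (h : p ^ (Nat.card G).factorization p ∣ Nat.card K) : ¬ p ∣ K.index := by
  intro hdvd
  have h1 : p ^ ((Nat.card G).factorization p + 1) ∣ Nat.card G := by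
    rw [pow_succ]
    exact (mul_dvd_mul h hdvd).trans (dvd_of_eq K.card_mul_index)
  exact Nat.pow_succ_factorization_not_dvd (Nat.card_pos (α := G)).ne' hp h1

theorem not_dvd_index_of_le [Finite G] {P K : Subgroup G} (p : ℕ) (hp : p.Prime) (hPK : P ≤ K)
    (hP : Nat.card P = p ^ (Nat.card G).factorization p) : ¬ p ∣ K.index :=
  not_dvd_index_of_pow_dvd_card K p hp (hP ▸ Subgroup.card_dvd_of_le hPK)

theorem card_lt_of_ne_top [Finite G] (K : Subgroup G) (h : K ≠ ⊤) : Nat.card K < Nat.card G :=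
  lt_of_le_of_ne (Subgroup.card_le_card_group K) (fun h' => h (Subgroup.eq_top_of_card_eq K h'))

theorem centralizer_ne_top_of_not_mem_center {x : G} (hx : x ∉ Subgroup.center G) :
    Subgroup.centralizer ({x} : Set G) ≠ ⊤ := by
  intro htop
  apply hx
  rw [Subgroup.mem_center_iff]
  intro g'
  have : g' ∈ Subgroup.centralizer ({x} : Set G) := htop ▸ Subgroup.mem_top g'
  rw [Subgroup.mem_centralizer_singleton_iff] at this
  exact this

/-- The order of `A ⊔ B` divides `|A| * |B|` when `B` normalizes `A`. -/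
theorem card_sup_dvd [Finite G] (A B : Subgroup G) (hB : B ≤ Subgroup.normalizer (A : Set G)) :
    Nat.card (A ⊔ B : Subgroup G) ∣ Nat.card A * Nat.card B := by
  haveI : (A.subgroupOf (B ⊔ A)).Normal := Subgroup.normal_subgroupOf_sup_of_le_normalizer hB
  have h1 : (A.subgroupOf (B ⊔ A)).relIndex ((B.subgroupOf (B ⊔ A)) ⊔ (A.subgroupOf (B ⊔ A)))
      = (A.subgroupOf (B ⊔ A)).relIndex (B.subgroupOf (B ⊔ A)) := Subgroup.relIndex_sup_right _ _
  have h2 : (B.subgroupOf (B ⊔ A)) ⊔ (A.subgroupOf (B ⊔ A)) = ⊤ := by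
    rw [← Subgroup.subgroupOf_sup le_sup_left le_sup_right]
    exact Subgroup.subgroupOf_self _
  rw [h2, Subgroup.relIndex_top_right] at h1
  have h3 : Nat.card (A.subgroupOf (B ⊔ A)) * (A.subgroupOf (B ⊔ A)).index
      = Nat.card (B ⊔ A : Subgroup G) := Subgroup.card_mul_index _
  have h4 : Nat.card (A.subgroupOf (B ⊔ A)) = Nat.card A :=
    Nat.card_congr (Subgroup.subgroupOfEquivOfLe le_sup_right).toEquiv
  have h5 : (A.subgroupOf (B ⊔ A)).relIndex (B.subgroupOf (B ⊔ A))
      ∣ Nat.card (B.subgroupOf (B ⊔ A)) := Subgroup.relIndex_dvd_card _ _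
  have h6 : Nat.card (B.subgroupOf (B ⊔ A)) = Nat.card B :=
    Nat.card_congr (Subgroup.subgroupOfEquivOfLe le_sup_left).toEquiv
  rw [sup_comm, ← h3, h4, h1]
  exact mul_dvd_mul_left _ (h6 ▸ h5)

/-- `G` has a Sylow `p`-subgroup and a Sylow `q`-subgroup commuting elementwise. -/
def CommSyl (G : Type u) [Group G] (p q : ℕ) : Prop :=
  ∃ P Q : Subgroup G, Nat.card P = p ^ (Nat.card G).factorization p ∧
    Nat.card Q = q ^ (Nat.card G).factorization q ∧ ∀ a ∈ P, ∀ b ∈ Q, a * b = b * a

theorem CommSyl.symm {p q : ℕ} (h : CommSyl G p q) : CommSyl G q p := by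
  obtain ⟨P, Q, hP, hQ, hc⟩ := h
  exact ⟨Q, P, hQ, hP, fun a ha b hb => (hc b hb a ha).symm⟩

theorem commSyl_of_subgroup [Finite G] {p q : ℕ} (K : Subgroup G) (hp : ¬ p ∣ K.index)
    (hq : ¬ q ∣ K.index) (h : CommSyl K p q) : CommSyl G p q := by
  obtain ⟨P, Q, hP, hQ, hc⟩ := h
  refine ⟨P.map K.subtype, Q.map K.subtype, ?_, ?_, ?_⟩
  · rw [Subgroup.card_map_of_injective K.subtype_injective, hP,
      factorization_card_of_not_dvd_index K p hp]
  · rw [Subgroup.card_map_of_injective K.subtype_injective, hQ,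
      factorization_card_of_not_dvd_index K q hq]
  · rintro a ⟨a', ha', rfl⟩ b ⟨b', hb', rfl⟩
    exact congrArg Subtype.val (hc a' ha' b' hb')

/-- The centralizer of a `p`-element contains a Sylow `p`-subgroup when `p` exceeds the degree
of a faithful character. -/
theorem not_dvd_index_centralizer [Finite G] {n : ℕ} (h : FaithDeg G n) (p : ℕ) (hp : p.Prime)
    (hnp : n < p) (x : G) (i : ℕ) (hx : orderOf x = p ^ i) :
    ¬ p ∣ (Subgroup.centralizer ({x} : Set G)).index := by
  haveI : Fact p.Prime := ⟨hp⟩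
  have hpg : IsPGroup p (Subgroup.zpowers x) :=
    IsPGroup.of_card (n := i) (by rw [Nat.card_zpowers, hx])
  obtain ⟨S, hS⟩ := hpg.exists_le_sylow
  have hScard := S.card_eq_multiplicity
  have hab : ∀ a b : (S : Subgroup G), a * b = b * a := by
    apply comm_of_primes_gt (h.subgroup (S : Subgroup G))
    intro r hr hrd
    rw [hScard] at hrd
    have := (Nat.prime_dvd_prime_iff_eq hr hp).mp (hr.dvd_of_dvd_pow hrd)
    omega
  apply not_dvd_index_of_le p hp (P := (S : Subgroup G)) _ hScard
  intro s hs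
  rw [Subgroup.mem_centralizer_singleton_iff]
  have hxS : x ∈ (S : Subgroup G) := hS (Subgroup.mem_zpowers x)
  exact congrArg Subtype.val (hab ⟨s, hs⟩ ⟨x, hxS⟩)

/-- The central case of the two-prime theorem. -/
theorem commSyl_of_central [Finite G] {n : ℕ} (h : FaithDeg G n) (p q : ℕ) (hp : p.Prime)
    (hq : q.Prime) (hpq : p ≠ q) (hnp : n + 1 < p) (hnq : n + 1 < q)
    (ih : ∀ (H : Subgroup G), Nat.card H < Nat.card G → CommSyl H p q)
    (z : G) (hz : z ∈ Subgroup.center G) (hzq : orderOf z = q) : CommSyl G p q := by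
  classical
  haveI : Fact p.Prime := ⟨hp⟩
  haveI : Fact q.Prime := ⟨hq⟩
  obtain ⟨M, hMn, hzM, c, hMc⟩ := exists_normal_index_pow_of_central h q hq (by omega) z hz hzq
  haveI := hMn
  have hMlt : Nat.card M < Nat.card G :=
    card_lt_of_ne_top M (fun h => hzM (h ▸ Subgroup.mem_top z))
  obtain ⟨PM, QM, hPM, hQM, hcomm⟩ := ih M hMlt
  have hpM : ¬ p ∣ M.index := by
    rw [hMc]; intro hd
    exact hpq ((Nat.prime_dvd_prime_iff_eq hp hq).mp (hp.dvd_of_dvd_pow hd))
  have hfr := Sylow.normalizer_sup_eq_top (Sylow.ofCard PM hPM)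
  obtain ⟨P, hPdef⟩ : ∃ P : Subgroup G, P = PM.map M.subtype := ⟨_, rfl⟩
  have hfr' : Subgroup.normalizer (P : Set G) ⊔ M = ⊤ := by rw [hPdef]; exact hfr
  obtain ⟨NG, hNG⟩ : ∃ NG : Subgroup G, NG = Subgroup.normalizer (P : Set G) := ⟨_, rfl⟩
  rw [← hNG] at hfr'
  have hPcard : Nat.card P = p ^ (Nat.card G).factorization p := by
    rw [hPdef, Subgroup.card_map_of_injective M.subtype_injective, hPM,
      factorization_card_of_not_dvd_index M p hpM]
  have hPNG : P ≤ NG := by rw [hNG]; exact Subgroup.le_normalizer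
  obtain ⟨Q, hQdef⟩ : ∃ Q : Subgroup G, Q = QM.map M.subtype := ⟨_, rfl⟩
  have hQcard : Nat.card Q = q ^ (Nat.card M).factorization q := by
    rw [hQdef, Subgroup.card_map_of_injective M.subtype_injective, hQM]
  have hPQ : ∀ a ∈ P, ∀ b ∈ Q, a * b = b * a := by
    rw [hPdef, hQdef]
    rintro a ⟨a', ha', rfl⟩ b ⟨b', hb', rfl⟩
    exact congrArg Subtype.val (hcomm a' ha' b' hb')
  have hQNG : Q ≤ NG := by
    intro b hb
    rw [hNG, Subgroup.mem_normalizer_iff]
    intro a
    constructor
    · intro ha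
      have : b * a * b⁻¹ = a := by rw [← hPQ a ha b hb, mul_inv_cancel_right]
      rw [this]; exact ha
    · intro ha
      have h1 := hPQ _ ha b hb
      have h2 : b * a = b * (b * a * b⁻¹) := by
        rw [← h1]; group
      have : a = b * a * b⁻¹ := mul_left_cancel h2
      rw [this]; exact ha
  have hQM' : Q ≤ M := by
    rw [hQdef]
    rintro b ⟨b', hb', rfl⟩; exact b'.2
  have hrel : M.relIndex NG = q ^ c := by
    have := Subgroup.relIndex_sup_right NG M
    rw [hfr', Subgroup.relIndex_top_right] at this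
    rw [← this, hMc]
  have hcardG : (Nat.card G).factorization q = (Nat.card M).factorization q + c := by
    rw [← M.card_mul_index, hMc, Nat.factorization_mul (Nat.card_pos).ne'
      (pow_ne_zero _ hq.ne_zero), Finsupp.add_apply, Nat.Prime.factorization_pow hq]
    simp
  have hqNG : ¬ q ∣ NG.index := by
    apply not_dvd_index_of_pow_dvd_card NG q hq
    rw [hcardG, pow_add]
    have h1 : Nat.card (M ⊓ NG : Subgroup G) * (M ⊓ NG).relIndex NG = Nat.card NG := by
      have := Subgroup.relIndex_mul_relIndex ⊥ (M ⊓ NG) NG bot_le inf_le_right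
      rwa [Subgroup.relIndex_bot_left, Subgroup.relIndex_bot_left] at this
    have h2 : (M ⊓ NG).relIndex NG = q ^ c := by rw [Subgroup.inf_relIndex_right, hrel]
    have h3 : Nat.card Q ∣ Nat.card (M ⊓ NG : Subgroup G) :=
      Subgroup.card_dvd_of_le (le_inf hQM' hQNG)
    rw [← h1, h2, ← hQcard]
    exact mul_dvd_mul_right h3 _
  obtain ⟨Q1S⟩ := (inferInstance : Nonempty (Sylow q NG))
  have hQ1card := Q1S.card_eq_multiplicity
  rw [factorization_card_of_not_dvd_index NG q hqNG] at hQ1card
  obtain ⟨Q1, hQ1def⟩ : ∃ Q1 : Subgroup G, Q1 = (Q1S : Subgroup NG).map NG.subtype := ⟨_, rfl⟩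
  have hQ1c : Nat.card Q1 = q ^ (Nat.card G).factorization q := by
    rw [hQ1def, Subgroup.card_map_of_injective NG.subtype_injective, hQ1card]
  have hQ1NG : Q1 ≤ NG := by
    rw [hQ1def]
    rintro b ⟨b', hb', rfl⟩; exact b'.2
  have hdvd : Nat.card (P ⊔ Q1 : Subgroup G) ∣ Nat.card P * Nat.card Q1 :=
    card_sup_dvd P Q1 (hNG ▸ hQ1NG)
  have hab : ∀ a b : (P ⊔ Q1 : Subgroup G), a * b = b * a := by
    apply comm_of_primes_gt (h.subgroup _)
    intro r hr hrd
    have h1 := hrd.trans hdvd
    rw [hPcard, hQ1c] at h1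
    rcases (Nat.Prime.dvd_mul hr).mp h1 with h2 | h2
    · have := (Nat.prime_dvd_prime_iff_eq hr hp).mp (hr.dvd_of_dvd_pow h2); omega
    · have := (Nat.prime_dvd_prime_iff_eq hr hq).mp (hr.dvd_of_dvd_pow h2); omega
  refine ⟨P, Q1, hPcard, hQ1c, ?_⟩
  intro a ha b hb
  exact congrArg Subtype.val
    (hab ⟨a, (le_sup_left : P ≤ P ⊔ Q1) ha⟩ ⟨b, (le_sup_right : Q1 ≤ P ⊔ Q1) hb⟩)

/-- Two-prime theorem: for primes `p ≠ q` larger than `n + 1`, a group with a faithful character
of degree `n` has commuting Sylow `p`- and `q`-subgroups. -/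
theorem commSyl_all (n : ℕ) : ∀ (N : ℕ) (G : Type u) [Group G] [Finite G], Nat.card G = N →
    FaithDeg G n → ∀ p q : ℕ, p.Prime → q.Prime → p ≠ q → n + 1 < p → n + 1 < q →
      CommSyl G p q := by
  intro N
  induction N using Nat.strong_induction_on with
  | _ N IH =>
    intro G _ _ hN h p q hp hq hpq hnp hnq
    haveI : Fact p.Prime := ⟨hp⟩
    haveI : Fact q.Prime := ⟨hq⟩
    have ih : ∀ (p q : ℕ), p.Prime → q.Prime → p ≠ q → n + 1 < p → n + 1 < q →
        ∀ H : Subgroup G, Nat.card H < Nat.card G → CommSyl H p q := by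
      intro p q hp hq hpq hnp hnq H hH
      exact IH (Nat.card H) (hN ▸ hH) H rfl (h.subgroup H) p q hp hq hpq hnp hnq
    by_cases hpG : p ∣ Nat.card G
    swap
    · obtain ⟨Q⟩ := (inferInstance : Nonempty (Sylow q G))
      refine ⟨⊥, Q, ?_, Q.card_eq_multiplicity, ?_⟩
      · rw [Nat.factorization_eq_zero_of_not_dvd hpG]; simp
      · intro a ha b _
        rw [Subgroup.mem_bot.mp ha]; simp
    by_cases hqG : q ∣ Nat.card G
    swap
    · obtain ⟨P⟩ := (inferInstance : Nonempty (Sylow p G))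
      refine ⟨P, ⊥, P.card_eq_multiplicity, ?_, ?_⟩
      · rw [Nat.factorization_eq_zero_of_not_dvd hqG]; simp
      · intro a _ b hb
        rw [Subgroup.mem_bot.mp hb]; simp
    obtain ⟨g, hgp, hgq⟩ := exists_orderOf_dvd_two_primes h p q hp hq hpq hnp hnq hpG hqG
    have hg0 : orderOf g ≠ 0 := (orderOf_pos g).ne'
    obtain ⟨x, hx⟩ : ∃ x : G, x = g ^ (orderOf g / p) := ⟨_, rfl⟩
    obtain ⟨y, hy⟩ : ∃ y : G, y = g ^ (orderOf g / q) := ⟨_, rfl⟩
    have hxo : orderOf x = p := by rw [hx]; exact orderOf_pow_orderOf_div hg0 hgp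
    have hyo : orderOf y = q := by rw [hy]; exact orderOf_pow_orderOf_div hg0 hgq
    have hxy : x * y = y * x := by rw [hx, hy, ← pow_add, ← pow_add, add_comm]
    by_cases hxc : x ∈ Subgroup.center G
    · exact (commSyl_of_central h q p hq hp hpq.symm hnq hnp (ih q p hq hp hpq.symm hnq hnp)
        x hxc hxo).symm
    have hClt : Nat.card (Subgroup.centralizer ({x} : Set G)) < Nat.card G :=
      card_lt_of_ne_top _ (centralizer_ne_top_of_not_mem_center hxc)
    obtain ⟨P1', Q1', hP1', hQ1', hc1⟩ := ih p q hp hq hpq hnp hnq _ hClt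
    have hpC : ¬ p ∣ (Subgroup.centralizer ({x} : Set G)).index :=
      not_dvd_index_centralizer h p hp (by omega) x 1 (by rw [hxo, pow_one])
    have hyC : y ∈ Subgroup.centralizer ({x} : Set G) := by
      rw [Subgroup.mem_centralizer_singleton_iff]; exact hxy.symm
    have hqC : q ∣ Nat.card (Subgroup.centralizer ({x} : Set G)) := by
      have := orderOf_dvd_natCard (⟨y, hyC⟩ : Subgroup.centralizer ({x} : Set G))
      rwa [Subgroup.orderOf_mk, hyo] at this
    have hqQ1 : q ∣ Nat.card Q1' := by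
      rw [hQ1']
      exact dvd_pow_self q (by
        have := (Nat.Prime.factorization_pos_of_dvd hq (Nat.card_pos).ne' hqC)
        omega)
    obtain ⟨y1', hy1'⟩ := exists_prime_orderOf_dvd_card' q hqQ1
    obtain ⟨y1, hy1⟩ : ∃ y1 : G, y1 = ((y1' : Subgroup.centralizer ({x} : Set G)) : G) :=
      ⟨_, rfl⟩
    have hy1o : orderOf y1 = q := by
      rw [hy1, Subgroup.orderOf_coe, Subgroup.orderOf_coe, hy1']
    obtain ⟨P1, hP1⟩ : ∃ P1 : Subgroup G,
        P1 = P1'.map (Subgroup.centralizer ({x} : Set G)).subtype := ⟨_, rfl⟩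
    have hP1card : Nat.card P1 = p ^ (Nat.card G).factorization p := by
      rw [hP1, Subgroup.card_map_of_injective (Subgroup.subtype_injective _), hP1',
        factorization_card_of_not_dvd_index _ p hpC]
    have hP1y : ∀ a ∈ P1, a * y1 = y1 * a := by
      rw [hP1, hy1]
      rintro a ⟨a', ha', rfl⟩
      exact congrArg Subtype.val (hc1 a' ha' y1'.1 y1'.2)
    by_cases hy1c : y1 ∈ Subgroup.center G
    · exact commSyl_of_central h p q hp hq hpq hnp hnq (ih p q hp hq hpq hnp hnq) y1 hy1c hy1o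
    have hC'lt : Nat.card (Subgroup.centralizer ({y1} : Set G)) < Nat.card G :=
      card_lt_of_ne_top _ (centralizer_ne_top_of_not_mem_center hy1c)
    have hpC' : ¬ p ∣ (Subgroup.centralizer ({y1} : Set G)).index := by
      apply not_dvd_index_of_le p hp (P := P1) _ hP1card
      intro a ha
      rw [Subgroup.mem_centralizer_singleton_iff]
      exact hP1y a ha
    have hqC' : ¬ q ∣ (Subgroup.centralizer ({y1} : Set G)).index :=
      not_dvd_index_centralizer h q hq (by omega) y1 1 (by rw [hy1o, pow_one])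
    exact commSyl_of_subgroup _ hpC' hqC' (ih p q hp hq hpq hnp hnq _ hC'lt)

/-- Blichfeldt: abelian Hall subgroup for the primes larger than `n + 1`, inductive form. -/
theorem blichfeldt_aux (n : ℕ) : ∀ (N : ℕ) (G : Type u) [Group G] [Finite G], Nat.card G = N →
    FaithDeg G n → ∃ A : Subgroup G, (∀ x ∈ A, ∀ y ∈ A, x * y = y * x) ∧
      (∀ q : ℕ, q.Prime → q ∣ Nat.card A → n + 1 < q) ∧
      ∀ q : ℕ, q.Prime → q ∣ A.index → q ≤ n + 1 := by
  intro N
  induction N using Nat.strong_induction_on with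
  | _ N IH =>
    intro G _ _ hN h
    by_cases hex : ∃ x : G, x ∉ Subgroup.center G ∧
        ∃ r i : ℕ, r.Prime ∧ n + 1 < r ∧ orderOf x = r ^ i
    · obtain ⟨x, hxc, r, i, hr, hnr, hxo⟩ := hex
      have hClt : Nat.card (Subgroup.centralizer ({x} : Set G)) < Nat.card G :=
        card_lt_of_ne_top _ (centralizer_ne_top_of_not_mem_center hxc)
      obtain ⟨A', hA'1, hA'2, hA'3⟩ := IH _ (hN ▸ hClt) _ rfl (h.subgroup _)
      refine ⟨A'.map (Subgroup.centralizer ({x} : Set G)).subtype, ?_, ?_, ?_⟩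
      · rintro a ⟨a', ha', rfl⟩ b ⟨b', hb', rfl⟩
        exact congrArg Subtype.val (hA'1 a' ha' b' hb')
      · intro q hq hqd
        rw [Subgroup.card_map_of_injective (Subgroup.subtype_injective _)] at hqd
        exact hA'2 q hq hqd
      · intro q hq hqd
        rw [Subgroup.index_map_subtype] at hqd
        rcases (Nat.Prime.dvd_mul hq).mp hqd with h1 | h1
        · exact hA'3 q hq h1
        · by_contra hlt
          push Not at hlt
          by_cases hqr : q = r
          · subst hqr
            exact not_dvd_index_centralizer h q hq (by omega) x i hxo h1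
          · haveI : Fact r.Prime := ⟨hr⟩
            haveI : Fact q.Prime := ⟨hq⟩
            obtain ⟨R0, Q0, hR0, hQ0, hcomm⟩ :=
              commSyl_all n (Nat.card G) G rfl h r q hr hq (Ne.symm hqr) hnr hlt
            have hpg : IsPGroup r (Subgroup.zpowers x) :=
              IsPGroup.of_card (n := i) (by rw [Nat.card_zpowers, hxo])
            obtain ⟨S, hS⟩ := hpg.exists_le_sylow
            obtain ⟨g, hg⟩ := MulAction.exists_smul_eq G (Sylow.ofCard R0 hR0) S
            have hxS : x ∈ (S : Subgroup G) := hS (Subgroup.mem_zpowers x)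
            have hx' : g⁻¹ * x * g ∈ R0 := by
              rw [← hg, Sylow.smul_def, Sylow.pointwise_smul_def, Sylow.coe_ofCard,
                Subgroup.mem_pointwise_smul_iff_inv_smul_mem] at hxS
              simpa [MulAut.smul_def] using hxS
            apply not_dvd_index_of_le q hq (P := Q0.map (MulAut.conj g).toMonoidHom) _ _ h1
            · rintro b ⟨b', hb', rfl⟩
              rw [Subgroup.mem_centralizer_singleton_iff]
              have h2 := hcomm _ hx' b' hb'
              simp only [MulEquiv.coe_toMonoidHom, MulAut.conj_apply]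
              calc g * b' * g⁻¹ * x = g * (b' * (g⁻¹ * x * g)) * g⁻¹ := by group
                _ = g * ((g⁻¹ * x * g) * b') * g⁻¹ := by rw [h2]
                _ = x * (g * b' * g⁻¹) := by group
            · rw [Subgroup.card_map_of_injective (MulAut.conj g).injective, hQ0]
    · push Not at hex
      let A : Subgroup G :=
        { carrier := {z | z ∈ Subgroup.center G ∧
            ∀ q : ℕ, q.Prime → q ∣ orderOf z → n + 1 < q}
          one_mem' := ⟨Subgroup.one_mem _, fun q hq hqd => by
            rw [orderOf_one] at hqd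
            exact absurd (Nat.dvd_one.mp hqd) hq.ne_one⟩
          mul_mem' := by
            rintro a b ⟨ha1, ha2⟩ ⟨hb1, hb2⟩
            refine ⟨mul_mem ha1 hb1, fun q hq hqd => ?_⟩
            have hcomm : Commute a b := Subgroup.mem_center_iff.mp hb1 a
            have h2 := (hqd.trans hcomm.orderOf_mul_dvd_lcm).trans (Nat.lcm_dvd_mul _ _)
            rcases (Nat.Prime.dvd_mul hq).mp h2 with h3 | h3
            · exact ha2 q hq h3
            · exact hb2 q hq h3
          inv_mem' := by
            rintro a ⟨ha1, ha2⟩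
            exact ⟨inv_mem ha1, fun q hq hqd => ha2 q hq (by rwa [orderOf_inv] at hqd)⟩ }
      refine ⟨A, ?_, ?_, ?_⟩
      · intro a ha b hb
        exact Subgroup.mem_center_iff.mp hb.1 a
      · intro q hq hqd
        haveI : Fact q.Prime := ⟨hq⟩
        obtain ⟨a, ha⟩ := exists_prime_orderOf_dvd_card' q hqd
        have h1 : orderOf (a : G) = q := by rw [Subgroup.orderOf_coe, ha]
        exact a.2.2 q hq (h1 ▸ dvd_refl q)
      · intro q hq hqd
        by_contra hlt
        push Not at hlt
        haveI : Fact q.Prime := ⟨hq⟩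
        obtain ⟨Q⟩ := (inferInstance : Nonempty (Sylow q G))
        apply not_dvd_index_of_le q hq (P := (Q : Subgroup G)) _ Q.card_eq_multiplicity hqd
        intro b hb
        obtain ⟨k, hk⟩ := IsPGroup.iff_orderOf.mp Q.isPGroup' ⟨b, hb⟩
        rw [Subgroup.orderOf_mk] at hk
        have hbc : b ∈ Subgroup.center G := by
          by_contra hbc
          exact hex b hbc q k hq hlt hk
        refine ⟨hbc, fun q' hq' hq'd => ?_⟩
        rw [hk] at hq'd
        have := (Nat.prime_dvd_prime_iff_eq hq' hq).mp (hq'.dvd_of_dvd_pow hq'd)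
        omega

/-- **Blichfeldt's theorem**: a finite linear group of degree `n` has an abelian Hall subgroup
for the set of primes larger than `n + 1`. -/
theorem blichfeldt [Finite G] (χ : G → ℂ) (hχ : Cfsg.IsCharacter G χ)
    (hfaith : ∀ g : G, χ g = χ 1 → g = 1) (n : ℕ) (hn : Cfsg.charDegree χ = n) :
    ∃ A : Subgroup G, (∀ x ∈ A, ∀ y ∈ A, x * y = y * x) ∧
      (∀ q : ℕ, q.Prime → q ∣ Nat.card A → n + 1 < q) ∧
      ∀ q : ℕ, q.Prime → q ∣ A.index → q ≤ n + 1 :=
  blichfeldt_aux n (Nat.card G) G rfl ⟨χ, hχ, hfaith, hn⟩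

end Blichfeldt2

end Cfsg.Agent.Lib.Helper80
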