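import Mathlib
import Cfsg.Prelude.Def_Characters
import Cfsg.Prelude.Def_Blocks
import Cfsg.Agent.Lib.Helper80.GalConj
import Cfsg.Agent.Lib.Helper74.TwoDeg
import Cfsg.Agent.Lib.Helper82.Ito

/-!
# Groups whose irreducible character degrees are `1` and `p`

A non-abelian group has `cd(G) = {1, p}` if and only if it has an abelian normal subgroup of
index `p` or its centre has index `p ^ 3` (Isaacs, Theorem 12.11).
-/

set_option autoImplicit false
set_option linter.style.haveILetI false

open scoped ComplexConjugate commutatorElement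

namespace Cfsg.Agent.Lib.Helper80

universe u

section DegP

variable {G : Type u} [Group G] [Finite G]

/-- An element lying in the kernel of every irreducible character whose kernel does not contain
the nontrivial normal subgroup `N` is trivial. -/
theorem eq_one_of_forall_not_ker (N : Subgroup G) [N.Normal] (hN : N ≠ ⊥) (u : G)
    (h : ∀ χ : Cfsg.IrrCharacter G, (¬ ∀ x ∈ N, (χ : G → ℂ) x = (χ : G → ℂ) 1) →
      (χ : G → ℂ) u = (χ : G → ℂ) 1) : u = 1 := by
  classical
  haveI := Fintype.ofFinite G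
  haveI := Fintype.ofFinite (Cfsg.IrrCharacter G)
  by_contra hu
  have hnc : ¬ IsConj u 1 := fun hc => hu (isConj_one_right.mp hc.symm)
  have h0 := second_orthogonality_of_not_isConj hnc
  rw [← Finset.sum_filter_add_sum_filter_not Finset.univ
    (fun χ : Cfsg.IrrCharacter G => ∀ x ∈ N, (χ : G → ℂ) x = (χ : G → ℂ) 1)] at h0
  obtain ⟨k, hk⟩ : ∃ k : ℕ, ∑ χ ∈ Finset.univ.filter (fun χ : Cfsg.IrrCharacter G =>
      ∀ x ∈ N, (χ : G → ℂ) x = (χ : G → ℂ) 1), (χ : G → ℂ) u * conj ((χ : G → ℂ) 1)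
      = (k : ℂ) := by
    rw [second_orthogonality_filter_ker N u 1]
    split_ifs
    · exact ⟨_, rfl⟩
    · exact ⟨0, by simp⟩
  have h2 : ∑ χ ∈ Finset.univ.filter (fun χ : Cfsg.IrrCharacter G =>
      ¬ ∀ x ∈ N, (χ : G → ℂ) x = (χ : G → ℂ) 1), (χ : G → ℂ) u * conj ((χ : G → ℂ) 1)
      = ((∑ χ ∈ Finset.univ.filter (fun χ : Cfsg.IrrCharacter G =>
      ¬ ∀ x ∈ N, (χ : G → ℂ) x = (χ : G → ℂ) 1), Cfsg.charDegree (χ : G → ℂ) ^ 2 : ℕ) : ℂ) := by
    rw [Nat.cast_sum]
    refine Finset.sum_congr rfl fun χ hχ => ?_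
    rw [Finset.mem_filter] at hχ
    rw [h χ hχ.2, char_one_eq_charDegree (isCharacter_of_isIrrCharacter χ.2),
      Complex.conj_natCast]
    push_cast
    ring
  rw [hk, h2] at h0
  have h3 : k + ∑ χ ∈ Finset.univ.filter (fun χ : Cfsg.IrrCharacter G =>
      ¬ ∀ x ∈ N, (χ : G → ℂ) x = (χ : G → ℂ) 1), Cfsg.charDegree (χ : G → ℂ) ^ 2 = 0 := by
    exact_mod_cast h0
  obtain ⟨⟨x, hxN⟩, hx1⟩ := (Subgroup.ne_bot_iff_exists_ne_one).mp hN
  have hx : x ≠ 1 := fun hx => hx1 (Subtype.ext hx)
  obtain ⟨χ₀, hχ₀⟩ := exists_irr_not_mem_irrKer hx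
  have hmem : χ₀ ∈ Finset.univ.filter (fun χ : Cfsg.IrrCharacter G =>
      ¬ ∀ x ∈ N, (χ : G → ℂ) x = (χ : G → ℂ) 1) := by
    rw [Finset.mem_filter]
    refine ⟨Finset.mem_univ _, fun hall => hχ₀ ((mem_irrKer χ₀ x).mpr (hall x hxN))⟩
  have h4 := (Finset.sum_eq_zero_iff.mp (Nat.eq_zero_of_add_eq_zero_left h3)) χ₀ hmem
  have h5 := charDegree_pos χ₀.2
  have h6 : Cfsg.charDegree (χ₀ : G → ℂ) = 0 := by
    exact pow_eq_zero_iff (two_ne_zero) |>.mp h4
  omega

/-- In a group of prime order, a subgroup missing one element meets it trivially. -/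
theorem eq_one_of_mem_of_card_prime {p : ℕ} (hp : p.Prime) (Z K : Subgroup G)
    (hZ : Nat.card Z = p) {z : G} (hz : z ∈ Z) (hzK : z ∉ K) {w : G} (hw : w ∈ Z)
    (hwK : w ∈ K) : w = 1 := by
  have h1 : Nat.card (K ⊓ Z : Subgroup G) ∣ p := by
    rw [← hZ]; exact Subgroup.card_dvd_of_le inf_le_right
  rcases (Nat.dvd_prime hp).mp h1 with h2 | h2
  · have h3 := Subgroup.eq_bot_of_card_eq _ h2
    have h4 : w ∈ K ⊓ Z := ⟨hwK, hw⟩
    rw [h3, Subgroup.mem_bot] at h4
    exact h4
  · exfalso
    have h3 : K ⊓ Z = Z := by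
      apply Subgroup.eq_of_le_of_card_ge inf_le_right
      rw [h2, hZ]
    have h4 : z ∈ K ⊓ Z := by rw [h3]; exact hz
    exact hzK h4.1

variable (p : ℕ) [Fact p.Prime]

/-- Restriction to a subgroup `B` whose derived subgroup contains a central element `z` of `G`:
the irreducible characters of `G` not containing `z` in their kernel have degree `p` and
restrict irreducibly to `B`. -/
theorem restrict_irr_of_central_commutator (hP : IsPGroup p G)
    (hcd : ∀ χ : Cfsg.IrrCharacter G, Cfsg.charDegree (χ : G → ℂ) = 1 ∨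
      Cfsg.charDegree (χ : G → ℂ) = p)
    (B : Subgroup G) {z : G} (hzc : z ∈ Subgroup.center G) (hzB : z ∈ ⁅B, B⁆)
    (χ : Cfsg.IrrCharacter G) (hχ : z ∉ irrKer χ) :
    Cfsg.IsIrrCharacter B (fun b : B => (χ : G → ℂ) b) ∧ Cfsg.charDegree (χ : G → ℂ) = p := by
  classical
  haveI := Fintype.ofFinite G
  haveI := Fintype.ofFinite B
  haveI := Fintype.ofFinite (Cfsg.IrrCharacter B)
  have hp := (Fact.out : p.Prime)
  have hχc := isCharacter_of_isIrrCharacter χ.2
  have hχB : Cfsg.IsCharacter B (fun b : B => (χ : G → ℂ) b) := isCharacter_restrict B hχc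
  rw [← Subgroup.map_subtype_commutator] at hzB
  obtain ⟨w, hwc, hwz⟩ := hzB
  have hwz' : (w : G) = z := hwz
  obtain ⟨ω, -, hω⟩ := central_char_mul χ.2 hzc
  have hω1 : ω ≠ 1 := by
    intro h1
    have h2 := hω 1
    rw [mul_one, h1, one_mul] at h2
    exact hχ ((mem_irrKer χ z).mpr h2)
  have hwcen : w ∈ Subgroup.center B := by
    rw [Subgroup.mem_center_iff]
    intro b
    apply Subtype.ext
    rw [Subgroup.coe_mul, Subgroup.coe_mul, hwz']
    exact Subgroup.mem_center_iff.mp hzc b
  -- a constituent of the restriction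
  obtain ⟨m, hm, hexp⟩ := character_expansion hχB
  have h1 : (fun b : B => (χ : G → ℂ) b) 1 ≠ 0 := char_one_ne_zero χ.2
  have hex : ∃ θ : Cfsg.IrrCharacter B, m θ ≠ 0 := by
    by_contra hcon
    push Not at hcon
    apply h1
    rw [hexp]
    simp [hcon]
  obtain ⟨θ, hθ⟩ := hex
  have hθne : Cfsg.classInner (fun b : B => (χ : G → ℂ) b) (θ : B → ℂ) ≠ 0 := by
    rw [hm θ]
    exact_mod_cast hθ
  -- `θ` is not linear
  have hθnl : Cfsg.charDegree (θ : B → ℂ) ≠ 1 := by
    intro hlin
    apply hθne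
    have hwk : w ∈ irrKer θ := commutator_le_irrKer_of_linear θ hlin hwc
    obtain ⟨ω', -, hω'⟩ := central_char_mul θ.2 hwcen
    have hω'1 : ω' = 1 := by
      have h2 := hω' 1
      rw [mul_one, (mem_irrKer θ w).mp hwk] at h2
      have h3 : (θ : B → ℂ) 1 ≠ 0 := char_one_ne_zero θ.2
      have h4 : (1 - ω') * (θ : B → ℂ) 1 = 0 := by linear_combination h2
      rcases mul_eq_zero.mp h4 with h5 | h5
      · exact (sub_eq_zero.mp h5).symm
      · exact absurd h5 h3
    unfold Cfsg.classInner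
    have hsum : ∑ b : B, (χ : G → ℂ) b * conj ((θ : B → ℂ) b)
        = ω * ∑ b : B, (χ : G → ℂ) b * conj ((θ : B → ℂ) b) := by
      rw [Finset.mul_sum]
      rw [← Equiv.sum_comp (Equiv.mulLeft w)
        (fun b : B => (χ : G → ℂ) b * conj ((θ : B → ℂ) b))]
      refine Finset.sum_congr rfl fun b _ => ?_
      rw [Equiv.coe_mulLeft, hω', hω'1, one_mul, Subgroup.coe_mul, hwz', hω]
      ring
    have h5 : (1 - ω) * ∑ b : B, (χ : G → ℂ) b * conj ((θ : B → ℂ) b) = 0 := by
      linear_combination hsum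
    rcases mul_eq_zero.mp h5 with h6 | h6
    · exact absurd (sub_eq_zero.mp h6).symm hω1
    · rw [h6, mul_zero]
  -- hence `θ` has degree at least `p`
  have hθp : p ≤ Cfsg.charDegree (θ : B → ℂ) := by
    obtain ⟨j, hj⟩ := (hP.to_subgroup B).exists_card_eq
    have h2 := charDegree_dvd_card θ.2
    rw [hj] at h2
    obtain ⟨i, -, hi⟩ := (Nat.dvd_prime_pow hp).mp h2
    have hi0 : i ≠ 0 := by
      intro h0
      rw [h0, pow_zero] at hi
      exact hθnl hi
    rw [hi]
    exact Nat.le_self_pow hi0 p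
  have hdeg : Cfsg.charDegree (fun b : B => (χ : G → ℂ) b) = Cfsg.charDegree (χ : G → ℂ) := rfl
  have hχp : Cfsg.charDegree (χ : G → ℂ) ≤ p := by
    rcases hcd χ with h2 | h2
    · rw [h2]; exact hp.one_lt.le
    · rw [h2]
  have heq := eq_of_constituent_of_degree_le hχB θ.2 hθne (by rw [hdeg]; exact hχp.trans hθp)
  refine ⟨by rw [heq]; exact θ.2, ?_⟩
  have h3 : Cfsg.charDegree (χ : G → ℂ) = Cfsg.charDegree (θ : B → ℂ) := by
    rw [← hdeg, heq]
  exact le_antisymm hχp (by rw [h3]; exact hθp)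

/-- An element of `B` centralizing `B` is central in `G`, when `B' ∩ Z(G) ≠ 1`. -/
theorem mem_center_of_commute_subgroup (hP : IsPGroup p G)
    (hcd : ∀ χ : Cfsg.IrrCharacter G, Cfsg.charDegree (χ : G → ℂ) = 1 ∨
      Cfsg.charDegree (χ : G → ℂ) = p)
    (B : Subgroup G) {z : G} (hzc : z ∈ Subgroup.center G) (hz1 : z ≠ 1) (hzB : z ∈ ⁅B, B⁆)
    {y : G} (hyB : y ∈ B) (hy : ∀ b ∈ B, b * y = y * b) : y ∈ Subgroup.center G := by
  classical
  haveI := Fintype.ofFinite G
  haveI : (Subgroup.zpowers z).Normal :=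
    normal_of_le_center' _ (by rw [Subgroup.zpowers_le]; exact hzc)
  have hN : Subgroup.zpowers z ≠ ⊥ := by
    intro hb
    apply hz1
    have := Subgroup.mem_zpowers z
    rw [hb, Subgroup.mem_bot] at this
    exact this
  rw [Subgroup.mem_center_iff]
  intro g
  have hcomm : ⁅y, g⁆ = 1 := by
    apply eq_one_of_forall_not_ker (Subgroup.zpowers z) hN
    intro χ hχ
    have hzk : z ∉ irrKer χ := by
      intro hzk
      apply hχ
      intro x hx
      have : Subgroup.zpowers z ≤ irrKer χ := by rw [Subgroup.zpowers_le]; exact hzk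
      exact (mem_irrKer χ x).mp (this hx)
    obtain ⟨hirr, -⟩ := restrict_irr_of_central_commutator p hP hcd B hzc hzB χ hzk
    have hyc : (⟨y, hyB⟩ : B) ∈ Subgroup.center B := by
      rw [Subgroup.mem_center_iff]
      intro b
      exact Subtype.ext (hy b b.2)
    have hnorm := norm_char_central hirr hyc
    have hnorm' : ‖(χ : G → ℂ) y‖ = ‖(χ : G → ℂ) 1‖ := hnorm
    obtain ⟨n, ρ, hρirr, hρ⟩ := χ.2
    rw [← hρ] at hnorm' ⊢
    rw [Representation.char_one, Complex.norm_natCast] at hnorm'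
    obtain ⟨c, hc⟩ := (norm_char_eq_finrank_iff ρ y).mp hnorm'
    have h1 : ρ ⁅y, g⁆ = 1 := by
      have h2 : ρ (y * g) = ρ (g * y) := by
        rw [map_mul, map_mul, hc]
        ext v
        simp
      have h3 : y * g = g * y → ⁅y, g⁆ = 1 := fun h => by
        rw [commutatorElement_eq_one_iff_mul_comm]; exact h
      have h4 : ⁅y, g⁆ = (y * g) * (g * y)⁻¹ := by
        rw [commutatorElement_def]; group
      rw [h4, map_mul, h2, ← map_mul, mul_inv_cancel, map_one]
    unfold Representation.character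
    rw [h1, map_one ρ]
  rw [commutatorElement_eq_one_iff_mul_comm] at hcomm
  exact hcomm.symm

/-- If `B` is non-abelian with all commutators in a central subgroup `Z₁` of order `p`, then some
subgroup `Y` of `B`, central in `G`, has index `p ^ 2` in `B`. -/
theorem exists_central_of_commutator_le_prime (hP : IsPGroup p G)
    (hcd : ∀ χ : Cfsg.IrrCharacter G, Cfsg.charDegree (χ : G → ℂ) = 1 ∨
      Cfsg.charDegree (χ : G → ℂ) = p)
    (B Z₁ : Subgroup G) (hZ₁c : Z₁ ≤ Subgroup.center G) (hZ₁p : Nat.card Z₁ = p)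
    (hBZ : ∀ a ∈ B, ∀ b ∈ B, ⁅a, b⁆ ∈ Z₁) (hna : ¬ ∀ a ∈ B, ∀ b ∈ B, a * b = b * a) :
    ∃ Y : Subgroup G, Y ≤ Subgroup.center G ∧ p ^ 2 * Nat.card Y = Nat.card B := by
  classical
  haveI := Fintype.ofFinite G
  have hp := (Fact.out : p.Prime)
  push Not at hna
  obtain ⟨a, ha, b, hb, hab⟩ := hna
  have hz1 : ⁅a, b⁆ ≠ 1 := by
    rw [Ne, commutatorElement_eq_one_iff_mul_comm]; exact hab
  have hzZ : ⁅a, b⁆ ∈ Z₁ := hBZ a ha b hb
  have hzc : ⁅a, b⁆ ∈ Subgroup.center G := hZ₁c hzZ
  have hzB : ⁅a, b⁆ ∈ ⁅B, B⁆ := Subgroup.commutator_mem_commutator ha hb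
  obtain ⟨χ, hχ⟩ := exists_irr_not_mem_irrKer hz1
  obtain ⟨hirr, hdeg⟩ := restrict_irr_of_central_commutator p hP hcd B hzc hzB χ hχ
  refine ⟨(Subgroup.center B).map B.subtype, ?_, ?_⟩
  · intro y hy
    obtain ⟨c, hc, rfl⟩ := hy
    apply mem_center_of_commute_subgroup p hP hcd B hzc hz1 hzB c.2
    intro b' hb'
    have := Subgroup.mem_center_iff.mp hc ⟨b', hb'⟩
    exact congrArg Subtype.val this
  · rw [Subgroup.card_subtype]
    have hdegθ : Cfsg.charDegree (fun b : B => (χ : G → ℂ) b) = p := hdeg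
    have key := charDegree_sq_mul_card_of_vanish (⟨_, hirr⟩ : Cfsg.IrrCharacter B)
      (Subgroup.center B) (fun c hc => norm_char_central hirr hc) ?_
    · rw [← key]
      change _ = Cfsg.charDegree (fun b : B => (χ : G → ℂ) b) ^ 2 * _
      rw [hdegθ]
    · intro c hc
      rw [Subgroup.mem_center_iff] at hc
      push Not at hc
      obtain ⟨x, hx⟩ := hc
      have hcx1 : ⁅c, x⁆ ≠ 1 := by
        rw [Ne, commutatorElement_eq_one_iff_mul_comm]; exact fun h => hx h.symm
      have hcxZ : ((⁅c, x⁆ : B) : G) ∈ Z₁ := hBZ c c.2 x x.2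
      apply char_eq_zero_of_commutator (⟨_, hirr⟩ : Cfsg.IrrCharacter B) ⊥ bot_le (y := x)
      · rw [centerMod_bot, Subgroup.mem_center_iff]
        intro b'
        apply Subtype.ext
        rw [Subgroup.coe_mul, Subgroup.coe_mul]
        exact Subgroup.mem_center_iff.mp (hZ₁c hcxZ) b'
      · intro hk
        rw [mem_irrKer] at hk
        have hk' : (χ : G → ℂ) ((⁅c, x⁆ : B) : G) = (χ : G → ℂ) 1 := hk
        have h1 := eq_one_of_mem_of_card_prime hp Z₁ (irrKer χ) hZ₁p hzZ hχ hcxZ
          ((mem_irrKer χ _).mpr hk')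
        exact hcx1 (Subtype.ext h1)

/-- A non-abelian `p`-group with a central subgroup of index dividing `p ^ 3` has an abelian
subgroup of index `p` or its centre has index `p ^ 3`. -/
theorem abelian_index_or_center_index (hna : ∃ a b : G, a * b ≠ b * a)
    (Y : Subgroup G) (hY : Y ≤ Subgroup.center G) (hcard : Nat.card G ∣ p ^ 3 * Nat.card Y) :
    (∃ A : Subgroup G, (∀ a ∈ A, ∀ b ∈ A, a * b = b * a) ∧ A.index = p) ∨
      (Subgroup.center G).index = p ^ 3 := by
  classical
  have hp := (Fact.out : p.Prime)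
  have hZidx : (Subgroup.center G).index ∣ p ^ 3 := by
    obtain ⟨k, hk⟩ := Subgroup.card_dvd_of_le hY
    have h1 := (Subgroup.center G).card_mul_index
    rw [← h1, hk] at hcard
    have hYpos : 0 < Nat.card Y := Nat.card_pos
    have h2 : Nat.card Y * (k * (Subgroup.center G).index) ∣ Nat.card Y * p ^ 3 := by
      rw [mul_comm (Nat.card Y) (p ^ 3), ← mul_assoc]; exact hcard
    have h3 := (Nat.mul_dvd_mul_iff_left hYpos).mp h2
    exact (dvd_mul_left _ _).trans h3
  obtain ⟨j, hj3, hj⟩ := (Nat.dvd_prime_pow hp).mp hZidx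
  obtain ⟨a, b, hab⟩ := hna
  have haZ : a ∉ Subgroup.center G := by
    intro h
    exact hab (Subgroup.mem_center_iff.mp h b).symm
  obtain ⟨M, hMdef⟩ : ∃ M : Subgroup G,
      M = Subgroup.closure ((Subgroup.center G : Set G) ∪ {a}) := ⟨_, rfl⟩
  have hMcomm : ∀ x ∈ M, ∀ y ∈ M, x * y = y * x := by
    have hk : ∀ x ∈ ((Subgroup.center G : Set G) ∪ {a}),
        ∀ y ∈ ((Subgroup.center G : Set G) ∪ {a}), x * y = y * x := by
      intro x hx y hy
      rcases hx with hx | hx
      · exact (Subgroup.mem_center_iff.mp hx y).symm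
      · rcases hy with hy | hy
        · exact Subgroup.mem_center_iff.mp hy x
        · rw [Set.mem_singleton_iff] at hx hy
          rw [hx, hy]
    have hcomm := Subgroup.isMulCommutative_closure hk
    intro x hx y hy
    rw [hMdef] at hx hy
    have := hcomm.is_comm.comm (⟨x, hx⟩ : Subgroup.closure _) ⟨y, hy⟩
    exact congrArg Subtype.val this
  have hZM : Subgroup.center G ≤ M := by
    rw [hMdef]
    exact fun x hx => Subgroup.subset_closure (Or.inl hx)
  have haM : a ∈ M := by
    rw [hMdef]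
    exact Subgroup.subset_closure (Or.inr rfl)
  have hMtop : M.index ≠ 1 := by
    rw [Ne, Subgroup.index_eq_one]
    intro htop
    exact hab (hMcomm a (by rw [htop]; trivial) b (by rw [htop]; trivial))
  have hrel : (Subgroup.center G).relIndex M ≠ 1 := by
    rw [Ne, Subgroup.relIndex_eq_one]
    intro hle
    exact haZ (hle haM)
  have hmul := Subgroup.relIndex_mul_index hZM
  rw [hj] at hmul
  obtain ⟨i, hij, hi⟩ := (Nat.dvd_prime_pow hp).mp (Dvd.intro_left _ hmul)
  have hi0 : i ≠ 0 := by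
    intro h0
    rw [h0, pow_zero] at hi
    exact hMtop hi
  have hilt : i ≠ j := by
    intro h
    rw [hi, h] at hmul
    have hpos : 0 < p ^ j := pow_pos hp.pos j
    have : (Subgroup.center G).relIndex M = 1 := by
      have h5 : (Subgroup.center G).relIndex M * p ^ j = 1 * p ^ j := by rw [hmul, one_mul]
      exact Nat.eq_of_mul_eq_mul_right hpos h5
    exact hrel this
  by_cases hj3' : j = 3
  · right
    rw [hj, hj3']
  · left
    refine ⟨M, hMcomm, ?_⟩
    have hi1 : i = 1 := by omega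
    rw [hi, hi1, pow_one]

/-- Non-abelian `p`-groups with character degrees `1` and `p` have an abelian subgroup of index
`p` or centre of index `p ^ 3`. -/
theorem pgroup_degP :
    ∀ (n : ℕ) (G : Type u) [Group G] [Finite G], Nat.card G = n → IsPGroup p G →
      (∀ χ : Cfsg.IrrCharacter G, Cfsg.charDegree (χ : G → ℂ) = 1 ∨
        Cfsg.charDegree (χ : G → ℂ) = p) →
      (∃ a b : G, a * b ≠ b * a) →
      (∃ A : Subgroup G, (∀ a ∈ A, ∀ b ∈ A, a * b = b * a) ∧ A.index = p) ∨
        (Subgroup.center G).index = p ^ 3 := by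
  intro n
  induction n using Nat.strong_induction_on with
  | _ n ih =>
    intro G _ _ hcard hP hcd hna
    have hp := (Fact.out : p.Prime)
    have hcne : commutator G ≠ ⊥ := by
      intro hb
      obtain ⟨a, b, hab⟩ := hna
      apply hab
      have h1 : ⁅a, b⁆ ∈ commutator G :=
        Subgroup.commutator_mem_commutator (Subgroup.mem_top a) (Subgroup.mem_top b)
      rw [hb, Subgroup.mem_bot, commutatorElement_eq_one_iff_mul_comm] at h1
      exact h1
    obtain ⟨z, hzc, hz1, hzz⟩ :=
      Helper53.exists_mem_center_of_normal_of_ne_bot hP (commutator G) hcne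
    obtain ⟨m, hm⟩ := hP.exists_card_eq
    have hord : orderOf z ∣ p ^ m := by rw [← hm]; exact orderOf_dvd_natCard z
    obtain ⟨e, -, he⟩ := (Nat.dvd_prime_pow hp).mp hord
    have he0 : e ≠ 0 := by
      intro h0
      rw [h0, pow_zero] at he
      exact hz1 (orderOf_eq_one_iff.mp he)
    have hpdvd : p ∣ orderOf z := by rw [he]; exact dvd_pow_self p he0
    have hwo : orderOf (z ^ (orderOf z / p)) = p :=
      orderOf_pow_orderOf_div (orderOf_pos z).ne' hpdvd
    obtain ⟨N, hNdef⟩ : ∃ N : Subgroup G, N = Subgroup.zpowers (z ^ (orderOf z / p)) := ⟨_, rfl⟩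
    have hNcard : Nat.card N = p := by rw [hNdef, Nat.card_zpowers, hwo]
    have hNc : N ≤ commutator G := by
      rw [hNdef, Subgroup.zpowers_le]; exact (commutator G).pow_mem hzc _
    have hNz : N ≤ Subgroup.center G := by
      rw [hNdef, Subgroup.zpowers_le]; exact (Subgroup.center G).pow_mem hzz _
    haveI : N.Normal := normal_of_le_center' N hNz
    by_cases hle : commutator G ≤ N
    · have hBZ : ∀ a ∈ (⊤ : Subgroup G), ∀ b ∈ (⊤ : Subgroup G), ⁅a, b⁆ ∈ N := fun a _ b _ =>
        hle (Subgroup.commutator_mem_commutator (Subgroup.mem_top a) (Subgroup.mem_top b))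
      have hna' : ¬ ∀ a ∈ (⊤ : Subgroup G), ∀ b ∈ (⊤ : Subgroup G), a * b = b * a := by
        intro h
        obtain ⟨a, b, hab⟩ := hna
        exact hab (h a trivial b trivial)
      obtain ⟨Y, hY, hYcard⟩ :=
        exists_central_of_commutator_le_prime p hP hcd ⊤ N hNz hNcard hBZ hna'
      rw [Subgroup.card_top] at hYcard
      apply abelian_index_or_center_index p hna Y hY
      rw [← hYcard]
      exact ⟨p, by ring⟩
    · have hnaq : ∃ a b : G ⧸ N, a * b ≠ b * a := by
        by_contra hcon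
        push Not at hcon
        apply hle
        rw [commutator_def, Subgroup.commutator_le]
        intro a _ b _
        rw [← QuotientGroup.eq_one_iff]
        have h2 : ((⁅a, b⁆ : G) : G ⧸ N) = ⁅(a : G ⧸ N), (b : G ⧸ N)⁆ := rfl
        rw [h2, commutatorElement_eq_one_iff_mul_comm]
        exact hcon _ _
      have e3 := Subgroup.card_eq_card_quotient_mul_card_subgroup N
      have hcq : Nat.card (G ⧸ N) < n := by
        rw [hcard, hNcard] at e3
        have hpos : 0 < Nat.card (G ⧸ N) := Nat.card_pos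
        nlinarith [hp.one_lt]
      have hcdq : ∀ ψ : Cfsg.IrrCharacter (G ⧸ N), Cfsg.charDegree (ψ : G ⧸ N → ℂ) = 1 ∨
          Cfsg.charDegree (ψ : G ⧸ N → ℂ) = p := by
        intro ψ
        exact hcd (inflateIrr N ψ).1
      rcases ih (Nat.card (G ⧸ N)) hcq (G ⧸ N) rfl (hP.to_quotient N) hcdq hnaq with
        ⟨Bq, hBq, hBqi⟩ | hZq
      · obtain ⟨B, hBdef⟩ : ∃ B : Subgroup G, B = Bq.comap (QuotientGroup.mk' N) := ⟨_, rfl⟩
        have hBi : B.index = p := by
          rw [hBdef, Subgroup.index_comap_of_surjective _ (QuotientGroup.mk'_surjective N), hBqi]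
        have hBZ : ∀ a ∈ B, ∀ b ∈ B, ⁅a, b⁆ ∈ N := by
          intro a ha b hb
          rw [hBdef, Subgroup.mem_comap] at ha hb
          rw [← QuotientGroup.eq_one_iff]
          have h2 : ((⁅a, b⁆ : G) : G ⧸ N) = ⁅(a : G ⧸ N), (b : G ⧸ N)⁆ := rfl
          rw [h2, commutatorElement_eq_one_iff_mul_comm]
          exact hBq _ ha _ hb
        by_cases hBab : ∀ a ∈ B, ∀ b ∈ B, a * b = b * a
        · exact Or.inl ⟨B, hBab, hBi⟩
        · obtain ⟨Y, hY, hYcard⟩ :=
            exists_central_of_commutator_le_prime p hP hcd B N hNz hNcard hBZ hBab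
          apply abelian_index_or_center_index p hna Y hY
          rw [← B.card_mul_index, hBi, ← hYcard]
          exact ⟨1, by ring⟩
      · have hYi : (centerMod N).index = p ^ 3 := by
          unfold centerMod
          rw [Subgroup.index_comap_of_surjective _ (QuotientGroup.mk'_surjective N), hZq]
        by_cases hYZ : centerMod N ≤ Subgroup.center G
        · apply abelian_index_or_center_index p hna (centerMod N) hYZ
          rw [← (centerMod N).card_mul_index, hYi]
          exact ⟨1, by ring⟩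
        · left
          obtain ⟨y₁, hy₁Y, hy₁Z⟩ := SetLike.not_le_iff_exists.mp hYZ
          rw [mem_centerMod] at hy₁Y
          let φ : G →* G := MonoidHom.mk' (fun g => ⁅y₁, g⁆) (by
            intro g h
            show ⁅y₁, g * h⁆ = ⁅y₁, g⁆ * ⁅y₁, h⁆
            have hc := Subgroup.mem_center_iff.mp (hNz (hy₁Y h)) g
            have h1 : ⁅y₁, g * h⁆ = ⁅y₁, g⁆ * (g * ⁅y₁, h⁆) * g⁻¹ := by
              simp only [commutatorElement_def]; group
            rw [h1, hc]
            group)
          have hφ : ∀ g, φ g = ⁅y₁, g⁆ := fun g => rfl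
          have hrange : φ.range ≤ N := by
            rintro _ ⟨g, rfl⟩
            exact hy₁Y g
          have hkeri : φ.ker.index = p := by
            rw [Subgroup.index_ker]
            have h1 : Nat.card φ.range ∣ p := by
              rw [← hNcard]; exact Subgroup.card_dvd_of_le hrange
            rcases (Nat.dvd_prime hp).mp h1 with h2 | h2
            · exfalso
              apply hy₁Z
              rw [Subgroup.mem_center_iff]
              intro g
              have h3 : φ g ∈ φ.range := ⟨g, rfl⟩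
              rw [Subgroup.eq_bot_of_card_eq _ h2, Subgroup.mem_bot, hφ,
                commutatorElement_eq_one_iff_mul_comm] at h3
              exact h3.symm
            · exact h2
          have hkmem : ∀ g, g ∈ φ.ker ↔ y₁ * g = g * y₁ := by
            intro g
            rw [MonoidHom.mem_ker, hφ, commutatorElement_eq_one_iff_mul_comm]
          by_cases hMab : ∀ a ∈ φ.ker, ∀ b ∈ φ.ker, a * b = b * a
          · exact ⟨φ.ker, hMab, hkeri⟩
          · exfalso
            apply hy₁Z
            push Not at hMab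
            obtain ⟨a, ha, b, hb, hab⟩ := hMab
            have hD : ⁅φ.ker, φ.ker⁆ ≠ ⊥ := by
              intro hbot
              have h1 : ⁅a, b⁆ ∈ ⁅φ.ker, φ.ker⁆ := Subgroup.commutator_mem_commutator ha hb
              rw [hbot, Subgroup.mem_bot, commutatorElement_eq_one_iff_mul_comm] at h1
              exact hab h1
            obtain ⟨z₂, hz₂D, hz₂1, hz₂c⟩ :=
              Helper53.exists_mem_center_of_normal_of_ne_bot hP ⁅φ.ker, φ.ker⁆ hD
            exact mem_center_of_commute_subgroup p hP hcd φ.ker hz₂c hz₂1 hz₂D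
              ((hkmem y₁).mpr rfl) (fun b hb => ((hkmem b).mp hb).symm)

end DegP

section Iff

variable {G : Type u} [Group G] [Finite G]

omit [Finite G] in
/-- Commutators lying in a central `p'`-subgroup of `p`-power index are trivial. -/
theorem commutator_eq_one_of_central_coprime (p : ℕ) (N : Subgroup G) [N.Normal]
    (hNc : N ≤ Subgroup.center G) (hcop : (Nat.card N).Coprime p) {k : ℕ}
    (hk : N.index = p ^ k) {c x : G} (h : ⁅c, x⁆ ∈ N) : ⁅c, x⁆ = 1 := by
  have h1 := commutatorElement_pow_left (hNc h) (p ^ k)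
  have h2 : c ^ p ^ k ∈ Subgroup.center G := by
    rw [← hk]; exact hNc (N.pow_index_mem c)
  have h3 : ⁅c ^ p ^ k, x⁆ = 1 := by
    rw [commutatorElement_eq_one_iff_mul_comm]
    exact (Subgroup.mem_center_iff.mp h2 x).symm
  rw [h3] at h1
  have h4 : orderOf ⁅c, x⁆ ∣ p ^ k := orderOf_dvd_of_pow_eq_one h1.symm
  have h5 : orderOf ⁅c, x⁆ ∣ Nat.card N := by
    have := orderOf_dvd_natCard (⟨⁅c, x⁆, h⟩ : N)
    rwa [Subgroup.orderOf_mk] at this
  have h6 : (orderOf ⁅c, x⁆).Coprime (p ^ k) :=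
    Nat.Coprime.coprime_dvd_left h5 (Nat.Coprime.pow_right k hcop)
  exact orderOf_eq_one_iff.mp (Nat.Coprime.eq_one_of_dvd h6 h4)

theorem degP_forward (p : ℕ) (hp : p.Prime) (hG : ∃ a b : G, a * b ≠ b * a)
    (hcd : ∀ χ : Cfsg.IrrCharacter G, Cfsg.charDegree (χ : G → ℂ) = 1 ∨
      Cfsg.charDegree (χ : G → ℂ) = p)
    (hex : ∃ χ : Cfsg.IrrCharacter G, Cfsg.charDegree (χ : G → ℂ) = p) :
    (∃ A : Subgroup G, A.Normal ∧ (∀ a ∈ A, ∀ b ∈ A, a * b = b * a) ∧ A.index = p) ∨
      (Subgroup.center G).index = p ^ 3 := by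
  classical
  haveI : Fact p.Prime := ⟨hp⟩
  haveI := Fintype.ofFinite G
  rcases Helper74.two_degree_structure p hcd hex hp.one_lt.ne' with
    h | ⟨q, e, N, hq, hpe, hN, hNc, hcop, k, hk⟩
  · exact Or.inl h
  · haveI := hN
    have hqp : q = p := by
      have he0 : e ≠ 0 := by
        rintro rfl
        rw [pow_zero] at hpe
        exact hp.one_lt.ne' hpe
      have : q ∣ p := by rw [hpe]; exact dvd_pow_self q he0
      exact (Nat.prime_dvd_prime_iff_eq hq hp).mp this
    rw [hqp] at hcop hk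
    have hcardq : Nat.card (G ⧸ N) = p ^ k := hk
    have hPq : IsPGroup p (G ⧸ N) := IsPGroup.of_card hcardq
    have hcdq : ∀ ψ : Cfsg.IrrCharacter (G ⧸ N), Cfsg.charDegree (ψ : G ⧸ N → ℂ) = 1 ∨
        Cfsg.charDegree (ψ : G ⧸ N → ℂ) = p := fun ψ => hcd (inflateIrr N ψ).1
    have hmem : ∀ a b : G, (a : G ⧸ N) * (b : G ⧸ N) = (b : G ⧸ N) * (a : G ⧸ N) →
        a * b = b * a := by
      intro a b h
      have h1 : ⁅a, b⁆ ∈ N := by
        rw [← QuotientGroup.eq_one_iff]
        have h2 : ((⁅a, b⁆ : G) : G ⧸ N) = ⁅(a : G ⧸ N), (b : G ⧸ N)⁆ := rfl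
        rw [h2, commutatorElement_eq_one_iff_mul_comm]
        exact h
      have := commutator_eq_one_of_central_coprime p N hNc hcop hk h1
      rwa [commutatorElement_eq_one_iff_mul_comm] at this
    have hnaq : ∃ a b : G ⧸ N, a * b ≠ b * a := by
      obtain ⟨a, b, hab⟩ := hG
      exact ⟨a, b, fun h => hab (hmem a b h)⟩
    have hk0 : k ≠ 0 := by
      rintro rfl
      rw [pow_zero] at hcardq
      obtain ⟨a, b, hab⟩ := hnaq
      haveI : Subsingleton (G ⧸ N) := (Nat.card_eq_one_iff_unique.mp hcardq).1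
      exact hab (Subsingleton.elim _ _)
    rcases pgroup_degP p _ (G ⧸ N) rfl hPq hcdq hnaq with ⟨Bq, hBq, hBqi⟩ | hZq
    · left
      have hBqn : Bq.Normal := by
        apply Subgroup.normal_of_index_eq_minFac_card
        rw [hBqi, hcardq, Nat.Prime.pow_minFac hp hk0]
      refine ⟨Bq.comap (QuotientGroup.mk' N), hBqn.comap _, ?_, ?_⟩
      · intro a ha b hb
        rw [Subgroup.mem_comap] at ha hb
        exact hmem a b (hBq _ ha _ hb)
      · rw [Subgroup.index_comap_of_surjective _ (QuotientGroup.mk'_surjective N), hBqi]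
    · right
      have h1 : centerMod N = Subgroup.center G := by
        apply le_antisymm
        · intro c hc
          rw [mem_centerMod] at hc
          rw [Subgroup.mem_center_iff]
          intro x
          have := commutator_eq_one_of_central_coprime p N hNc hcop hk (hc x)
          rw [commutatorElement_eq_one_iff_mul_comm] at this
          exact this.symm
        · exact center_le_centerMod N
      rw [← h1]
      unfold centerMod
      rw [Subgroup.index_comap_of_surjective _ (QuotientGroup.mk'_surjective N), hZq]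

theorem degP_backward (p : ℕ) (hp : p.Prime) (hG : ∃ a b : G, a * b ≠ b * a)
    (h : (∃ A : Subgroup G, A.Normal ∧ (∀ a ∈ A, ∀ b ∈ A, a * b = b * a) ∧ A.index = p) ∨
      (Subgroup.center G).index = p ^ 3) :
    (∀ χ : Cfsg.IrrCharacter G, Cfsg.charDegree (χ : G → ℂ) = 1 ∨
      Cfsg.charDegree (χ : G → ℂ) = p) ∧
    ∃ χ : Cfsg.IrrCharacter G, Cfsg.charDegree (χ : G → ℂ) = p := by
  have hall : ∀ χ : Cfsg.IrrCharacter G, Cfsg.charDegree (χ : G → ℂ) = 1 ∨
      Cfsg.charDegree (χ : G → ℂ) = p := by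
    intro χ
    rcases h with ⟨A, hAn, hAab, hAi⟩ | hZ
    · haveI := hAn
      have h1 := Helper82.ito_charDegree_dvd χ.2 A hAab
      rw [hAi] at h1
      exact (Nat.dvd_prime hp).mp h1
    · have h1 := Helper82.ito_charDegree_dvd χ.2 (Subgroup.center G)
        (fun a ha b _ => (Subgroup.mem_center_iff.mp ha b).symm)
      rw [hZ] at h1
      obtain ⟨i, -, hi⟩ := (Nat.dvd_prime_pow hp).mp h1
      have h2 := charDegree_sq_mul_card_center_le χ
      rw [← (Subgroup.center G).card_mul_index, hZ, hi] at h2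
      have hZpos : 0 < Nat.card (Subgroup.center G) := Nat.card_pos
      have h3 : (p ^ i) ^ 2 ≤ p ^ 3 := by
        have : (p ^ i) ^ 2 * Nat.card (Subgroup.center G)
            ≤ p ^ 3 * Nat.card (Subgroup.center G) := by
          rw [mul_comm (p ^ 3)]; exact h2
        exact Nat.le_of_mul_le_mul_right this hZpos
      rw [← pow_mul] at h3
      have h4 : i * 2 ≤ 3 := (Nat.pow_le_pow_iff_right hp.one_lt).mp h3
      have hi1 : i = 0 ∨ i = 1 := by omega
      rcases hi1 with rfl | rfl
      · left; rw [hi, pow_zero]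
      · right; rw [hi, pow_one]
  refine ⟨hall, ?_⟩
  have hna : ¬ IsMulCommutative G := by
    intro hc
    obtain ⟨a, b, hab⟩ := hG
    exact hab (hc.is_comm.comm a b)
  obtain ⟨χ, hχ⟩ := exists_nonlinear hna
  exact ⟨χ, (hall χ).resolve_left hχ⟩

end Iff

end Cfsg.Agent.Lib.Helper80
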