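import Mathlib
import Cfsg.Prelude.Def_Characters
import Cfsg.Prelude.Def_Blocks
import Cfsg.Prelude.Def_Solvable
import Cfsg.Agent.Lib.Helper80.BrolineGarrison

/-!
# Garrison's theorem

A finite solvable group with `n` irreducible character degrees has nilpotent length at most `n`.
-/

set_option autoImplicit false
set_option linter.style.haveILetI false

open scoped ComplexConjugate commutatorElement

namespace Cfsg.Agent.Lib.Helper80

universe u

section Sections

variable {G H : Type*} [Group G] [Group H]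

/-- A section of a nilpotent subgroup is nilpotent. -/
theorem isNilpotent_section_of_isNilpotent (A B : Subgroup G) (hnil : Group.IsNilpotent B)
    (_h : (A.subgroupOf B).Normal) : Group.IsNilpotent (↥B ⧸ A.subgroupOf B) := by
  haveI := hnil
  infer_instance

/-- Nilpotent sections pull back along surjective homomorphisms. -/
theorem isNilpotent_comap_section (π : G →* H) (hπ : Function.Surjective π) (A B : Subgroup H)
    (hAB : ∀ _h : (A.subgroupOf B).Normal, Group.IsNilpotent (↥B ⧸ A.subgroupOf B))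
    (h : ((A.comap π).subgroupOf (B.comap π)).Normal) :
    Group.IsNilpotent (↥(B.comap π) ⧸ (A.comap π).subgroupOf (B.comap π)) := by
  haveI hn : (A.subgroupOf B).Normal := by
    refine ⟨fun a ha b => ?_⟩
    obtain ⟨g, hg⟩ := hπ (b : H)
    obtain ⟨x, hx⟩ := hπ (a : H)
    have hgB : g ∈ B.comap π := by rw [Subgroup.mem_comap, hg]; exact b.2
    have hxB : x ∈ B.comap π := by rw [Subgroup.mem_comap, hx]; exact a.2
    have hxA : (⟨x, hxB⟩ : B.comap π) ∈ (A.comap π).subgroupOf (B.comap π) := by
      rw [Subgroup.mem_subgroupOf, Subgroup.mem_comap]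
      change π x ∈ A
      rw [hx]
      exact Subgroup.mem_subgroupOf.mp ha
    have h1 := h.conj_mem _ hxA ⟨g, hgB⟩
    rw [Subgroup.mem_subgroupOf, Subgroup.mem_comap] at h1
    rw [Subgroup.mem_subgroupOf]
    have h2 : π (((⟨g, hgB⟩ : B.comap π) * ⟨x, hxB⟩ * (⟨g, hgB⟩ : B.comap π)⁻¹ : B.comap π) : G)
        = ((b * a * b⁻¹ : B) : H) := by
      push_cast
      rw [map_mul, map_mul, map_inv, hg, hx]
    rw [h2] at h1
    exact h1
  haveI := hAB hn
  let φ : ↥(B.comap π) →* ↥B ⧸ A.subgroupOf B :=
    (QuotientGroup.mk' (A.subgroupOf B)).comp (π.subgroupComap B)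
  have hφ : Function.Surjective φ :=
    (QuotientGroup.mk'_surjective _).comp (π.subgroupComap_surjective_of_surjective B hπ)
  have hker : φ.ker = (A.comap π).subgroupOf (B.comap π) := by
    ext x
    rw [MonoidHom.mem_ker, Subgroup.mem_subgroupOf, Subgroup.mem_comap]
    change ((π.subgroupComap B x : B) : ↥B ⧸ A.subgroupOf B) = 1 ↔ _
    rw [QuotientGroup.eq_one_iff, Subgroup.mem_subgroupOf]
    rfl
  exact Group.nilpotent_of_mulEquiv
    (((QuotientGroup.quotientMulEquivOfEq hker).symm.trans
      (QuotientGroup.quotientKerEquivOfSurjective φ hφ)).symm)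

end Sections

section Degrees

variable {G : Type u} [Group G] [Finite G]

/-- The set of irreducible character degrees. -/
def cdSet (G : Type u) [Group G] : Set ℕ :=
  {d : ℕ | ∃ χ : Cfsg.IrrCharacter G, Cfsg.charDegree (χ : G → ℂ) = d}

theorem cdSet_finite : (cdSet G).Finite :=
  Set.finite_range (fun χ : Cfsg.IrrCharacter G => Cfsg.charDegree (χ : G → ℂ))

omit [Finite G] in
theorem one_mem_cdSet : 1 ∈ cdSet G := ⟨trivIrr G, charDegree_trivIrr⟩

/-- For a solvable group which is not nilpotent, the quotient by the Fitting subgroup has fewer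
irreducible character degrees. -/
theorem ncard_cdSet_quotient_fitting_lt [Group.IsSolvable G]
    (hF : Cfsg.fittingSubgroup G ≠ ⊤) :
    (cdSet (G ⧸ Cfsg.fittingSubgroup G)).ncard < (cdSet G).ncard := by
  haveI : Nonempty (Cfsg.IrrCharacter G) := ⟨trivIrr G⟩
  obtain ⟨χ₀, hχ₀⟩ := Finite.exists_max (fun χ : Cfsg.IrrCharacter G =>
    Cfsg.charDegree (χ : G → ℂ))
  apply Set.ncard_lt_ncard _ cdSet_finite
  refine ⟨?_, ?_⟩
  · rintro d ⟨ψ, rfl⟩
    exact ⟨(inflateIrr (Cfsg.fittingSubgroup G) ψ).1, rfl⟩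
  · intro hsub
    obtain ⟨ψ, hψ⟩ := hsub ⟨χ₀, rfl⟩
    set χ : Cfsg.IrrCharacter G := (inflateIrr (Cfsg.fittingSubgroup G) ψ).1 with hχ
    have hχd : Cfsg.charDegree (χ : G → ℂ) = Cfsg.charDegree (χ₀ : G → ℂ) := hψ
    have hFle : Cfsg.fittingSubgroup G ≤ irrKer χ := fun x hx =>
      (mem_irrKer χ x).mpr ((inflateIrr (Cfsg.fittingSubgroup G) ψ).2 x hx)
    have hbg : ¬ irrKer χ ≤ Cfsg.fittingSubgroup G ∨
        (irrKer χ = Cfsg.fittingSubgroup G ∧ Group.IsSolvable (G ⧸ irrKer χ) ∧ irrKer χ ≠ ⊤) := by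
      by_cases hle : irrKer χ ≤ Cfsg.fittingSubgroup G
      · right
        have heq := le_antisymm hle hFle
        exact ⟨heq, inferInstance, fun htop => hF (by rw [← heq]; exact htop)⟩
      · exact Or.inl hle
    obtain ⟨ψ', hdeg, -⟩ := broline_garrison χ (irrKer χ) rfl hbg
    have := hχ₀ ψ'
    omega

end Degrees

section Main

/-- Garrison's theorem, with a chain indexed by the natural numbers. -/
theorem garrison_aux : ∀ (n : ℕ) (G : Type u) [Group G] [Finite G], Group.IsSolvable G →
    (cdSet G).ncard ≤ n →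
    ∃ N : ℕ → Subgroup G, N 0 = ⊥ ∧ (∀ k, n ≤ k → N k = ⊤) ∧ Monotone N ∧
      (∀ k, (N k).Normal) ∧
      ∀ k, ∀ _h : ((N k).subgroupOf (N (k + 1))).Normal,
        Group.IsNilpotent (↥(N (k + 1)) ⧸ (N k).subgroupOf (N (k + 1))) := by
  intro n
  induction n with
  | zero =>
    intro G _ _ _ hcard
    exfalso
    have h0 : (cdSet G).ncard = 0 := Nat.le_zero.mp hcard
    have h1 := (Set.ncard_eq_zero cdSet_finite).mp h0
    have h2 : (1 : ℕ) ∈ cdSet G := one_mem_cdSet
    rw [h1] at h2
    exact h2
  | succ n ih =>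
    intro G _ _ hsolv hcard
    haveI := hsolv
    by_cases hF : Cfsg.fittingSubgroup G = ⊤
    · let N : ℕ → Subgroup G := fun k => if k = 0 then ⊥ else ⊤
      have hN0 : N 0 = ⊥ := if_pos rfl
      have hNs : ∀ j, N (j + 1) = ⊤ := fun j => if_neg (Nat.succ_ne_zero j)
      refine ⟨N, hN0, ?_, ?_, ?_, ?_⟩
      · intro k hk
        obtain ⟨j, rfl⟩ : ∃ j, k = j + 1 := ⟨k - 1, by omega⟩
        exact hNs j
      · intro a b hab
        rcases a with _ | a
        · rw [hN0]; exact bot_le
        · obtain ⟨j, rfl⟩ : ∃ j, b = j + 1 := ⟨b - 1, by omega⟩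
          rw [hNs, hNs]
      · intro k
        rcases k with _ | k
        · rw [hN0]; infer_instance
        · rw [hNs]; infer_instance
      · intro k h
        apply isNilpotent_section_of_isNilpotent _ _ _ h
        have e : N (k + 1) = Cfsg.fittingSubgroup G := by rw [hNs, hF]
        rw [e]
        exact Cfsg.Agent.Lib.Helper71.fittingSubgroup_isNilpotent
    · have hlt := ncard_cdSet_quotient_fitting_lt hF
      have hle : (cdSet (G ⧸ Cfsg.fittingSubgroup G)).ncard ≤ n := by omega
      obtain ⟨Nb, hNb0, hNbtop, hNbmono, hNbn, hNbnil⟩ :=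
        ih (G ⧸ Cfsg.fittingSubgroup G) inferInstance hle
      let π := QuotientGroup.mk' (Cfsg.fittingSubgroup G)
      have hπ : Function.Surjective π := QuotientGroup.mk'_surjective _
      let N : ℕ → Subgroup G := fun k => Nat.casesOn k ⊥ (fun j => (Nb j).comap π)
      have hN0 : N 0 = ⊥ := rfl
      have hNs : ∀ j, N (j + 1) = (Nb j).comap π := fun j => rfl
      refine ⟨N, hN0, ?_, ?_, ?_, ?_⟩
      · intro k hk
        obtain ⟨j, rfl⟩ : ∃ j, k = j + 1 := ⟨k - 1, by omega⟩
        rw [hNs, hNbtop j (by omega), Subgroup.comap_top]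
      · intro a b hab
        rcases a with _ | a
        · rw [hN0]; exact bot_le
        · obtain ⟨j, rfl⟩ : ∃ j, b = j + 1 := ⟨b - 1, by omega⟩
          rw [hNs, hNs]
          exact Subgroup.comap_mono (hNbmono (by omega))
      · intro k
        rcases k with _ | k
        · rw [hN0]; infer_instance
        · rw [hNs]
          exact Subgroup.Normal.comap (hNbn k) π
      · intro k
        rcases k with _ | k
        · intro h
          apply isNilpotent_section_of_isNilpotent _ _ _ h
          have e : N (0 + 1) = Cfsg.fittingSubgroup G := by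
            rw [hNs, hNb0, MonoidHom.comap_bot, QuotientGroup.ker_mk']
          rw [e]
          exact Cfsg.Agent.Lib.Helper71.fittingSubgroup_isNilpotent
        · intro h
          exact isNilpotent_comap_section π hπ (Nb k) (Nb (k + 1)) (hNbnil k) h

end Main

end Cfsg.Agent.Lib.Helper80
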