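import Mathlib
import Cfsg.Agent.Lib.Helper80.Blichfeldt2
import Cfsg.Agent.S0176
import Cfsg.Agent.S4470

/-!
# Jordan's theorem on finite linear groups, explicit bound

A finite group with a faithful character of degree `n` has an abelian normal subgroup of index
at most `n! * 12 ^ (n * (π (n + 1) + 1))`.
-/

set_option autoImplicit false
set_option linter.style.haveILetI false

namespace Cfsg.Agent.Lib.Helper80

universe u

section Jordan

variable {G : Type u} [Group G]

/-- A nilpotent group with a faithful character of degree `n` has an abelian subgroup of index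
dividing `n!` (it is a monomial group). -/
theorem exists_abelian_index_dvd_factorial [Finite G] [Group.IsNilpotent G] {n : ℕ}
    (h : FaithDeg G n) :
    ∃ B : Subgroup G, (∀ x ∈ B, ∀ y ∈ B, x * y = y * x) ∧ B.index ∣ n.factorial := by
  classical
  haveI := Fintype.ofFinite G
  haveI : Fintype (Cfsg.IrrCharacter G) := Fintype.ofFinite _
  obtain ⟨χ, hχ, hf, hn⟩ := h
  obtain ⟨m, hm, hexp⟩ := character_expansion hχ
  have hsum := charDegree_eq_sum hχ m hexp
  have hmon : ∀ ψ : Cfsg.IrrCharacter G, ∃ (H : Subgroup G) (lam : H →* ℂˣ),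
      ψ.1 = Cfsg.indFun H (fun h => (lam h : ℂ)) :=
    fun ψ => Cfsg.Agent.S0176.result ψ.1 ψ.2
  choose H lam hψ using hmon
  have hdeg : ∀ ψ, Cfsg.charDegree ψ.1 = (H ψ).index := by
    intro ψ
    have h1 := char_one_eq_charDegree (isCharacter_of_isIrrCharacter ψ.2)
    have h2 : ψ.1 1 = ((H ψ).index : ℂ) := by
      conv_lhs => rw [hψ ψ]
      rw [indFun_one]; simp
    rw [h2] at h1
    exact_mod_cast h1.symm
  have hXcard : Nat.card (Σ ψ : Cfsg.IrrCharacter G, Σ _ : Fin (m ψ), G ⧸ H ψ) = n := by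
    rw [Nat.card_sigma, ← hn, hsum]
    refine Finset.sum_congr rfl (fun ψ _ => ?_)
    rw [Nat.card_sigma]
    simp [hdeg, Subgroup.index]
  refine ⟨(MulAction.toPermHom G (Σ ψ : Cfsg.IrrCharacter G, Σ _ : Fin (m ψ), G ⧸ H ψ)).ker,
    ?_, ?_⟩
  · intro g hg k hk
    have hcore : ∀ (u : G),
        u ∈ (MulAction.toPermHom G (Σ ψ : Cfsg.IrrCharacter G, Σ _ : Fin (m ψ), G ⧸ H ψ)).ker →
        ∀ ψ, m ψ ≠ 0 → ∀ b : G, b⁻¹ * u * b ∈ H ψ := by
      intro u hu ψ hmψ b
      have h1 : MulAction.toPermHom G (Σ ψ : Cfsg.IrrCharacter G, Σ _ : Fin (m ψ), G ⧸ H ψ) u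
          = 1 := hu
      have h2 := congrArg (fun σ : Equiv.Perm (Σ ψ : Cfsg.IrrCharacter G, Σ _ : Fin (m ψ),
        G ⧸ H ψ) => σ ⟨ψ, ⟨⟨0, Nat.pos_of_ne_zero hmψ⟩, (b : G ⧸ H ψ)⟩⟩) h1
      simp only [MulAction.toPermHom_apply, MulAction.toPerm_apply, Sigma.smul_mk,
        Equiv.Perm.coe_one, id_eq, Sigma.mk.injEq, heq_eq_eq, true_and] at h2
      have h3 : ((u * b : G) : G ⧸ H ψ) = (b : G ⧸ H ψ) := h2
      have h4 := QuotientGroup.eq.mp h3
      have h5 := inv_mem h4
      have h6 : ((u * b)⁻¹ * b)⁻¹ = b⁻¹ * u * b := by group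
      rwa [h6] at h5
    have hc : g * k * g⁻¹ * k⁻¹ = 1 := by
      apply hf
      rw [hexp]
      simp only [Finset.sum_apply, Pi.smul_apply, smul_eq_mul]
      refine Finset.sum_congr rfl (fun ψ _ => ?_)
      by_cases hmψ : m ψ = 0
      · rw [hmψ]; simp
      · congr 1
        rw [hψ ψ]
        unfold Cfsg.indFun
        congr 1
        refine Finset.sum_congr rfl (fun x _ => ?_)
        have hg' := hcore g hg ψ hmψ x
        have hk' := hcore k hk ψ hmψ x
        have e1 : x⁻¹ * (g * k * g⁻¹ * k⁻¹) * x = ((⟨x⁻¹ * g * x, hg'⟩ * ⟨x⁻¹ * k * x, hk'⟩ *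
            ⟨x⁻¹ * g * x, hg'⟩⁻¹ * ⟨x⁻¹ * k * x, hk'⟩⁻¹ : H ψ) : G) := by
          simp only [Subgroup.coe_mul, Subgroup.coe_inv]; group
        have e2 : x⁻¹ * 1 * x = ((1 : H ψ) : G) := by simp
        rw [e1, e2, extendByZero_apply_mem, extendByZero_apply_mem]
        have e3 : lam ψ (⟨x⁻¹ * g * x, hg'⟩ * ⟨x⁻¹ * k * x, hk'⟩ *
            ⟨x⁻¹ * g * x, hg'⟩⁻¹ * ⟨x⁻¹ * k * x, hk'⟩⁻¹) = 1 := by
          rw [map_mul, map_mul, map_mul, map_inv, map_inv, mul_inv_cancel_comm, mul_inv_cancel]
        rw [e3, map_one]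
    calc g * k = (g * k * g⁻¹ * k⁻¹) * (k * g) := by group
      _ = k * g := by rw [hc, one_mul]
  · rw [Subgroup.index_ker]
    have h1 := Subgroup.card_subgroup_dvd_card
      (MulAction.toPermHom G (Σ ψ : Cfsg.IrrCharacter G, Σ _ : Fin (m ψ), G ⧸ H ψ)).range
    have h2 : Nat.card (Equiv.Perm (Σ ψ : Cfsg.IrrCharacter G, Σ _ : Fin (m ψ), G ⧸ H ψ))
        = n.factorial := by
      rw [Nat.card_eq_fintype_card, Fintype.card_perm, ← Nat.card_eq_fintype_card, hXcard]
    rwa [h2] at h1

/-- The `p`-part of the index of `A` divides the relative index of `A` in a subgroup `K` of index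
prime to `p`. -/
theorem pow_factorization_index_dvd_relIndex [Finite G] (A K : Subgroup G) (p : ℕ)
    (hp : p.Prime) (hK : ¬ p ∣ K.index) : p ^ (A.index.factorization p) ∣ A.relIndex K := by
  have h1 : A.index ∣ A.relIndex K * K.index := by
    have e1 := Subgroup.relIndex_mul_index (inf_le_left : A ⊓ K ≤ A)
    have e2 := Subgroup.relIndex_mul_index (inf_le_right : A ⊓ K ≤ K)
    rw [Subgroup.inf_relIndex_right] at e2
    rw [e2, ← e1]
    exact dvd_mul_left _ _
  have h2 : p ^ (A.index.factorization p) ∣ A.relIndex K * K.index :=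
    (Nat.ordProj_dvd _ p).trans h1
  have hco : Nat.Coprime (p ^ (A.index.factorization p)) K.index :=
    Nat.Coprime.pow_left _ ((Nat.Prime.coprime_iff_not_dvd hp).mpr hK)
  exact hco.dvd_of_dvd_mul_right h2

theorem prod_prime_pow_dvd (T : Finset ℕ) (hT : ∀ p ∈ T, p.Prime) (f : ℕ → ℕ) (J : ℕ)
    (h : ∀ p ∈ T, p ^ f p ∣ J) : ∏ p ∈ T, p ^ f p ∣ J := by
  classical
  induction T using Finset.induction_on with
  | empty => simp
  | insert p T hpT ih =>
    rw [Finset.prod_insert hpT]
    apply Nat.Coprime.mul_dvd_of_dvd_of_dvd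
    · apply Nat.Coprime.prod_right
      intro r hr
      apply Nat.Coprime.pow
      rw [Nat.coprime_primes (hT p (Finset.mem_insert_self p T))
        (hT r (Finset.mem_insert_of_mem hr))]
      rintro rfl; exact hpT hr
    · exact h p (Finset.mem_insert_self p T)
    · exact ih (fun r hr => hT r (Finset.mem_insert_of_mem hr))
        (fun r hr => h r (Finset.mem_insert_of_mem hr))

/-- **Jordan's theorem**, explicit bound. -/
theorem jordan_bound [Finite G] (χ : G → ℂ) (hχ : Cfsg.IsCharacter G χ)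
    (hfaith : ∀ g : G, χ g = χ 1 → g = 1) (n : ℕ) (hn : Cfsg.charDegree χ = n) :
    ∃ A : Subgroup G, A.Normal ∧ (∀ x ∈ A, ∀ y ∈ A, x * y = y * x) ∧
      A.index ≤ Nat.factorial n * 12 ^ (n * (Nat.primeCounting (n + 1) + 1)) := by
  classical
  have hFD : FaithDeg G n := ⟨χ, hχ, hfaith, hn⟩
  obtain ⟨A, hAn, hAab, hA⟩ := Cfsg.Agent.S4470.result χ hχ hfaith n hn
  obtain ⟨H0, hH0ab, hH0card, hH0idx⟩ := blichfeldt χ hχ hfaith n hn
  refine ⟨A, hAn, hAab, ?_⟩
  have hI0 : A.index ≠ 0 := Subgroup.index_ne_zero_of_finite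
  have hrel0 : ∀ K : Subgroup G, A.relIndex K ≠ 0 := fun K => Subgroup.index_ne_zero_of_finite
  -- large primes
  have hlarge : ∀ p ∈ A.index.primeFactors.filter (fun p => n + 1 < p),
      p ^ A.index.factorization p ∣ A.relIndex H0 := by
    intro p hp
    rw [Finset.mem_filter] at hp
    have hpp := Nat.prime_of_mem_primeFactors hp.1
    apply pow_factorization_index_dvd_relIndex A H0 p hpp
    intro hd
    have := hH0idx p hpp hd
    omega
  have hL : ∏ p ∈ A.index.primeFactors.filter (fun p => n + 1 < p),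
      p ^ A.index.factorization p ≤ 12 ^ n := by
    have h1 := prod_prime_pow_dvd _
      (fun p hp => Nat.prime_of_mem_primeFactors (Finset.mem_filter.mp hp).1)
      (fun p => A.index.factorization p) _ hlarge
    have h2 : A.relIndex H0 ≤ 12 ^ n := hA H0 hH0ab
    exact (Nat.le_of_dvd (Nat.pos_of_ne_zero (hrel0 H0)) h1).trans h2
  -- small primes
  have hsmall : ∀ p : ℕ, ∃ a c : ℕ, p ∈ A.index.primeFactors.filter (fun p => p ≤ n + 1) →
      (p ^ A.index.factorization p ≤ p ^ a * c ∧ p ^ a ∣ n.factorial ∧ c ≤ 12 ^ n) := by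
    intro p
    by_cases hp : p ∈ A.index.primeFactors.filter (fun p => p ≤ n + 1)
    swap
    · exact ⟨0, 0, fun h => absurd h hp⟩
    rw [Finset.mem_filter] at hp
    have hpp := Nat.prime_of_mem_primeFactors hp.1
    haveI : Fact p.Prime := ⟨hpp⟩
    obtain ⟨P⟩ := (inferInstance : Nonempty (Sylow p G))
    haveI : Group.IsNilpotent (P : Subgroup G) := P.isPGroup'.isNilpotent
    obtain ⟨B', hB'ab, hB'idx⟩ :=
      exists_abelian_index_dvd_factorial (hFD.subgroup (P : Subgroup G))
    obtain ⟨B, hBdef⟩ : ∃ B : Subgroup G, B = B'.map (P : Subgroup G).subtype := ⟨_, rfl⟩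
    have hBP : B ≤ (P : Subgroup G) := by
      rw [hBdef]; rintro b ⟨b', hb', rfl⟩; exact b'.2
    have hBab : ∀ x ∈ B, ∀ y ∈ B, x * y = y * x := by
      rw [hBdef]
      rintro a ⟨a', ha', rfl⟩ b ⟨b', hb', rfl⟩
      exact congrArg Subtype.val (hB'ab a' ha' b' hb')
    have hBrel : B.relIndex (P : Subgroup G) = B'.index := by
      rw [hBdef]
      unfold Subgroup.relIndex Subgroup.subgroupOf
      rw [Subgroup.comap_map_eq_self_of_injective (Subgroup.subtype_injective _)]
    have h1 : p ^ A.index.factorization p ∣ A.relIndex (P : Subgroup G) :=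
      pow_factorization_index_dvd_relIndex A (P : Subgroup G) p hpp P.not_dvd_index
    have h2 : A.relIndex (P : Subgroup G) ∣ A.relIndex B * B.relIndex (P : Subgroup G) := by
      have e1 := Subgroup.relIndex_dvd_of_le_left (P : Subgroup G) (inf_le_left : A ⊓ B ≤ A)
      have e2 := Subgroup.relIndex_mul_relIndex (A ⊓ B) B (P : Subgroup G) inf_le_right hBP
      rw [Subgroup.inf_relIndex_right] at e2
      rw [e2]; exact e1
    have h3 : B.relIndex (P : Subgroup G) ∣ p ^ (Nat.card G).factorization p :=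
      P.card_eq_multiplicity ▸ Subgroup.relIndex_dvd_card B (P : Subgroup G)
    obtain ⟨a, -, ha⟩ := (Nat.dvd_prime_pow hpp).mp h3
    refine ⟨a, A.relIndex B, fun _ => ⟨?_, ?_, hA B hBab⟩⟩
    · have h4 := h1.trans h2
      rw [ha, mul_comm] at h4
      exact Nat.le_of_dvd (Nat.mul_pos (pow_pos hpp.pos _) (Nat.pos_of_ne_zero (hrel0 B))) h4
    · rw [← ha, hBrel]; exact hB'idx
  choose a c hac using hsmall
  have hS : ∏ p ∈ A.index.primeFactors.filter (fun p => p ≤ n + 1),
      p ^ A.index.factorization p ≤ n.factorial * (12 ^ n) ^ Nat.primeCounting (n + 1) := by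
    calc ∏ p ∈ A.index.primeFactors.filter (fun p => p ≤ n + 1), p ^ A.index.factorization p
        ≤ ∏ p ∈ A.index.primeFactors.filter (fun p => p ≤ n + 1), (p ^ a p * c p) :=
          Finset.prod_le_prod (fun _ _ => Nat.zero_le _) (fun p hp => (hac p hp).1)
      _ = (∏ p ∈ A.index.primeFactors.filter (fun p => p ≤ n + 1), p ^ a p) *
          ∏ p ∈ A.index.primeFactors.filter (fun p => p ≤ n + 1), c p := Finset.prod_mul_distrib
      _ ≤ n.factorial * (12 ^ n) ^ (A.index.primeFactors.filter (fun p => p ≤ n + 1)).card := by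
          apply Nat.mul_le_mul
          · apply Nat.le_of_dvd (Nat.factorial_pos n)
            exact prod_prime_pow_dvd _
              (fun p hp => Nat.prime_of_mem_primeFactors (Finset.mem_filter.mp hp).1) a _
              (fun p hp => (hac p hp).2.1)
          · exact Finset.prod_le_pow_card _ _ _ (fun p hp => (hac p hp).2.2)
      _ ≤ n.factorial * (12 ^ n) ^ Nat.primeCounting (n + 1) := by
          apply Nat.mul_le_mul_left
          apply Nat.pow_le_pow_right (by positivity)
          have hsub : A.index.primeFactors.filter (fun p => p ≤ n + 1)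
              ⊆ (Finset.range (n + 2)).filter Nat.Prime := by
            intro p hp
            rw [Finset.mem_filter] at hp
            rw [Finset.mem_filter, Finset.mem_range]
            exact ⟨by omega, Nat.prime_of_mem_primeFactors hp.1⟩
          have := Finset.card_le_card hsub
          rw [← Nat.count_eq_card_filter_range] at this
          exact this
  have hprod : A.index = (∏ p ∈ A.index.primeFactors.filter (fun p => p ≤ n + 1),
      p ^ A.index.factorization p) * (∏ p ∈ A.index.primeFactors.filter (fun p => n + 1 < p),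
      p ^ A.index.factorization p) := by
    conv_lhs => rw [← Nat.prod_factorization_pow_eq_self hI0]
    rw [Nat.prod_factorization_eq_prod_primeFactors,
      ← Finset.prod_filter_mul_prod_filter_not A.index.primeFactors (fun p => p ≤ n + 1)]
    congr 1
    exact Finset.prod_congr (Finset.filter_congr (fun p _ => not_le)) (fun _ _ => rfl)
  calc A.index = _ := hprod
    _ ≤ (n.factorial * (12 ^ n) ^ Nat.primeCounting (n + 1)) * 12 ^ n := Nat.mul_le_mul hS hL
    _ = Nat.factorial n * 12 ^ (n * (Nat.primeCounting (n + 1) + 1)) := by ring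

end Jordan

end Cfsg.Agent.Lib.Helper80
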