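import Mathlib

/-!
# Arithmetic of the Schur exponent `∑ i, ⌊n / ((p - 1) p ^ i)⌋`
-/

set_option autoImplicit false

namespace Cfsg.Agent.Lib.Helper80

/-- The truncated Schur exponent. -/
def schurExpN (p n N : ℕ) : ℕ := ∑ i ∈ Finset.range N, n / ((p - 1) * p ^ i)

/-- The Schur exponent. -/
def schurExp (p n : ℕ) : ℕ := ∑ i ∈ Finset.range (n + 1), n / ((p - 1) * p ^ i)

theorem schurExp_term_zero {p n i : ℕ} (hp : 2 ≤ p) (hi : n + 1 ≤ i) :
    n / ((p - 1) * p ^ i) = 0 := by
  apply Nat.div_eq_of_lt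
  have h1 : i < p ^ i := Nat.lt_pow_self hp
  have h2 : 1 ≤ p - 1 := by omega
  calc n < p ^ i := by omega
    _ = 1 * p ^ i := (one_mul _).symm
    _ ≤ (p - 1) * p ^ i := Nat.mul_le_mul_right _ h2

theorem schurExpN_eq {p n N : ℕ} (hp : 2 ≤ p) (hN : n + 1 ≤ N) :
    schurExpN p n N = schurExp p n := by
  unfold schurExpN schurExp
  symm
  apply Finset.sum_subset
  · intro i hi
    rw [Finset.mem_range] at hi ⊢
    omega
  · intro i _ hi
    rw [Finset.mem_range, not_lt] at hi
    exact schurExp_term_zero hp hi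

theorem schurExp_add_le {p : ℕ} (hp : 2 ≤ p) (a b : ℕ) :
    schurExp p a + schurExp p b ≤ schurExp p (a + b) := by
  rw [← schurExpN_eq hp (N := a + b + 1) (by omega), ← schurExpN_eq hp (N := a + b + 1) (by omega),
    ← schurExpN_eq hp (N := a + b + 1) le_rfl]
  unfold schurExpN
  rw [← Finset.sum_add_distrib]
  exact Finset.sum_le_sum fun i _ => Nat.div_add_div_le_add_div

theorem schurExp_mono {p : ℕ} (hp : 2 ≤ p) {a b : ℕ} (h : a ≤ b) :
    schurExp p a ≤ schurExp p b := by
  obtain ⟨c, rfl⟩ := Nat.exists_eq_add_of_le h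
  exact le_trans (Nat.le_add_right _ _) (schurExp_add_le hp a c)

theorem schurExp_sum_le {p : ℕ} (hp : 2 ≤ p) {ι : Type*} (s : Finset ι) (f : ι → ℕ) :
    ∑ i ∈ s, schurExp p (f i) ≤ schurExp p (∑ i ∈ s, f i) := by
  classical
  induction s using Finset.induction_on with
  | empty => simp
  | insert a s ha ih =>
    rw [Finset.sum_insert ha, Finset.sum_insert ha]
    exact le_trans (Nat.add_le_add_left ih _) (schurExp_add_le hp _ _)

theorem schurExp_prime_mul {p : ℕ} (hp : 2 ≤ p) {k : ℕ} (hk : 1 ≤ k) :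
    p * schurExp p k + 1 ≤ schurExp p (p * k) := by
  have hkN : k + 1 ≤ p * k + 1 := by nlinarith
  rw [← schurExpN_eq hp (N := p * k + 1) hkN, ← schurExpN_eq hp (N := p * k + 1) le_rfl]
  unfold schurExpN
  rw [Finset.mul_sum]
  have hex : ∃ j, k < (p - 1) * p ^ j := by
    refine ⟨k, ?_⟩
    have h1 : k < p ^ k := Nat.lt_pow_self hp
    have h2 : 1 ≤ p - 1 := by omega
    calc k < p ^ k := h1
      _ = 1 * p ^ k := (one_mul _).symm
      _ ≤ (p - 1) * p ^ k := Nat.mul_le_mul_right _ h2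
  classical
  set j := Nat.find hex with hj
  have hj1 : k < (p - 1) * p ^ j := Nat.find_spec hex
  have hjk : j ≤ k := Nat.find_min' hex (by
    have h1 : k < p ^ k := Nat.lt_pow_self hp
    have h2 : 1 ≤ p - 1 := by omega
    calc k < p ^ k := h1
      _ = 1 * p ^ k := (one_mul _).symm
      _ ≤ (p - 1) * p ^ k := Nat.mul_le_mul_right _ h2)
  have hjmem : j ∈ Finset.range (p * k + 1) := by
    rw [Finset.mem_range]; omega
  have hle : ∀ i ∈ Finset.range (p * k + 1),
      p * (k / ((p - 1) * p ^ i)) ≤ p * k / ((p - 1) * p ^ i) :=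
    fun i _ => Nat.mul_div_le_mul_div_assoc _ _ _
  have hlt : p * (k / ((p - 1) * p ^ j)) < p * k / ((p - 1) * p ^ j) := by
    rw [Nat.div_eq_of_lt hj1, Nat.mul_zero]
    apply Nat.div_pos _ (by
      have h2 : 1 ≤ p - 1 := by omega
      positivity)
    rcases Nat.eq_zero_or_pos j with h0 | hpos
    · rw [h0, pow_zero, mul_one]
      have : p - 1 ≤ p * 1 := by omega
      exact le_trans this (Nat.mul_le_mul_left p hk)
    · have hmin : ¬ k < (p - 1) * p ^ (j - 1) := Nat.find_min hex (by omega)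
      rw [not_lt] at hmin
      have hpow : p ^ j = p * p ^ (j - 1) := by
        rw [← pow_succ']; congr 1; omega
      rw [hpow]
      calc (p - 1) * (p * p ^ (j - 1)) = p * ((p - 1) * p ^ (j - 1)) := by ring
        _ ≤ p * k := Nat.mul_le_mul_left p hmin
  exact Finset.sum_lt_sum hle ⟨j, hjmem, hlt⟩

end Cfsg.Agent.Lib.Helper80
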