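import Mathlib
import Cfsg.Prelude.Def_Characters
import Cfsg.Prelude.Def_CharExt
import Cfsg.Agent.Lib.Helper75.CentExt7
import Cfsg.Agent.Lib.Helper75.GaloisChar
import Cfsg.Agent.Lib.Helper75.Glaub2
import Cfsg.Agent.Lib.Helper75.Clifford
import Cfsg.Agent.Lib.Helper80.CharKer
import Cfsg.Agent.Lib.Helper80.CharOps
import Cfsg.Agent.Lib.Helper80.SchurBound2
import Cfsg.Agent.Lib.Helper80.PSolvArith

/-!
# The invariant case of the `p`-solvable bound: canonical extensions are `p`-rational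
-/

set_option autoImplicit false
set_option linter.style.haveILetI false

namespace Cfsg.Agent.Lib.Helper80

open Cfsg.Agent.Lib.Helper3

universe u

section Can

variable {Γ : Type u} [Group Γ] [Finite Γ] (H : Subgroup Γ) [hH : H.Normal]

/-- An extension to `Γ` of an irreducible character of the normal subgroup `H`, of determinantal
order prime to the index, is fixed by the Galois automorphisms fixing the `|H|`-th roots of
unity, provided the degree and the order of `H` are prime to the index. -/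
theorem canonical_ext_pow_of_coprime (hcop : (Nat.card H).Coprime H.index)
    {θh : Γ → ℂ} (h1 : Cfsg.IsIrrCharacter Γ θh)
    (hres : Cfsg.IsIrrCharacter H (fun h : H => θh h))
    (hd : (Cfsg.detOrder θh).Coprime H.index) (k : ℕ) (hk : k.Coprime (Nat.card Γ))
    (hk1 : k ≡ 1 [MOD Nat.card H]) (y : Γ) : θh (y ^ k) = θh y := by
  haveI := Fintype.ofFinite Γ
  obtain ⟨σ, hσ⟩ := Cfsg.Agent.Lib.Helper75.exists_galois_pow (G := Γ) k hk
  have hc := isCharacter_of_irr h1
  have h2 : Cfsg.IsIrrCharacter Γ (fun y => σ (θh y)) :=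
    Cfsg.Agent.Lib.Helper75.isIrrCharacter_galois σ h1
  have heq : ∀ g : H, (fun y => σ (θh y)) g = θh g := by
    intro g
    show σ (θh g) = θh g
    rw [hσ θh hc]
    have h3 : orderOf (g : Γ) ∣ Nat.card H := by
      have := orderOf_dvd_natCard g
      rwa [← Subgroup.orderOf_coe] at this
    have h4 : (g : Γ) ^ k = (g : Γ) ^ 1 := pow_eq_pow_iff_modEq.2 (hk1.of_dvd h3)
    rw [h4, pow_one]
  have hd2 : (Cfsg.detOrder (fun y => σ (θh y))).Coprime H.index := by
    rw [Cfsg.Agent.Lib.Helper75.detOrder_galois σ hc]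
    exact hd
  obtain ⟨d, Y, hY, hYχ⟩ := hres
  haveI hY' : Y.IsIrreducible := hY
  have hcf := isClassFunction_of_isCharacter hc
  have hinv : ∀ (g : Γ) (n : H), Y.character (MulAut.conjNormal g n) = Y.character n := by
    intro g n
    rw [hYχ]
    exact hcf n g
  have hdd : d ∣ Nat.card H := by
    have := charDegree_dvd_card
      (⟨d, Y, hY, rfl⟩ : Cfsg.IsIrrCharacter H Y.character)
    rwa [charDegree_char] at this
  have hcc : Nat.Coprime H.index (Cfsg.detOrder Y.character * d) :=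
    Nat.Coprime.mul_right
      (Nat.Coprime.coprime_dvd_right
        (Cfsg.Agent.Lib.Helper75.detOrder_dvd_card Y.character) hcop.symm)
      (Nat.Coprime.coprime_dvd_right hdd hcop.symm)
  obtain ⟨χ₀, -, huniq⟩ :=
    Cfsg.Agent.Lib.Helper75.exists_unique_extension_of_coprime H Y hinv hcc
  have e1 : θh = χ₀ := huniq θh h1 (fun n => by rw [hYχ]) hd.symm
  have e2 : (fun y => σ (θh y)) = χ₀ :=
    huniq _ h2 (fun n => by rw [hYχ]; exact heq n) hd2.symm
  have h6 := congrFun (e2.trans e1.symm) y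
  rw [← h6]
  exact (hσ θh hc y).symm

/-- **The invariant case.** `H` a normal `p'`-subgroup of `p`-power index, `θ` an invariant
irreducible character of `H`, `R` a `p`-subgroup. The elements of `R` acting trivially on
`H / ker θ` have index at most `p ^ schurExp p θ(1)` in `R`. -/
theorem relIndex_le_of_invariant (p : ℕ) [hp : Fact p.Prime] {b : ℕ} (hidx : H.index = p ^ b)
    (hcop : (Nat.card H).Coprime p) (R : Subgroup Γ) (hR : IsPGroup p R)
    {θ : H → ℂ} (hθ : Cfsg.IsIrrCharacter H θ)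
    (hinv : ∀ g : Γ, Cfsg.Agent.Lib.Helper75.conjChar H θ g = θ)
    (D : Subgroup Γ)
    (hD : ∀ x ∈ R, (∀ h : H, θ (⟨x * h * x⁻¹, hH.conj_mem h h.2 x⟩ * h⁻¹) = θ 1) → x ∈ D) :
    D.relIndex R ≤ p ^ schurExp p (Cfsg.charDegree θ) := by
  classical
  have hpp : p.Prime := hp.out
  have hcopi : (Nat.card H).Coprime H.index := by
    rw [hidx]; exact Nat.Coprime.pow_right b hcop
  -- the canonical extension
  obtain ⟨d, Y, hY, hYχ⟩ := hθ
  haveI hY' : Y.IsIrreducible := hY
  have hθ' : Cfsg.IsIrrCharacter H θ := ⟨d, Y, hY, hYχ⟩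
  have hinvY : ∀ (g : Γ) (n : H), Y.character (MulAut.conjNormal g n) = Y.character n := by
    intro g n
    rw [hYχ]
    have h1 := congrFun (hinv g⁻¹) n
    unfold Cfsg.Agent.Lib.Helper75.conjChar at h1
    have h2 : (MulAut.conjNormal g⁻¹ : MulAut H)⁻¹ n = MulAut.conjNormal g n := by
      rw [map_inv, inv_inv]
    rw [h2] at h1
    exact h1
  have hdd : d ∣ Nat.card H := by
    have := charDegree_dvd_card
      (⟨d, Y, hY, rfl⟩ : Cfsg.IsIrrCharacter H Y.character)
    rwa [charDegree_char] at this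
  have hcc : Nat.Coprime H.index (Cfsg.detOrder Y.character * d) :=
    Nat.Coprime.mul_right
      (Nat.Coprime.coprime_dvd_right
        (Cfsg.Agent.Lib.Helper75.detOrder_dvd_card Y.character) hcopi.symm)
      (Nat.Coprime.coprime_dvd_right hdd hcopi.symm)
  obtain ⟨θh, ⟨hirr, hext, hdet⟩, -⟩ :=
    Cfsg.Agent.Lib.Helper75.exists_unique_extension_of_coprime H Y hinvY hcc
  have hext' : ∀ n : H, θh n = θ n := fun n => by rw [hext n, hYχ]
  have hres : Cfsg.IsIrrCharacter H (fun h : H => θh h) := by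
    have : (fun h : H => θh h) = θ := funext hext'
    rw [this]; exact hθ'
  have hdo : (Cfsg.detOrder θh).Coprime H.index := by
    rw [hdet]
    exact Nat.Coprime.coprime_dvd_left
      (Cfsg.Agent.Lib.Helper75.detOrder_dvd_card Y.character) hcopi
  have hcardΓ : Nat.card Γ = Nat.card H * p ^ b := by
    rw [← hidx]; exact (Subgroup.card_mul_index H).symm
  have hcopb : (Nat.card H).Coprime (p ^ b) := Nat.Coprime.pow_right b hcop
  -- orders of elements of R divide p ^ b
  have hord : ∀ x ∈ R, orderOf x ∣ p ^ b := by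
    intro x hx
    apply orderOf_dvd_of_pow_eq_one
    have h1 : x ^ p ^ b ∈ H := by
      rw [← hidx]; exact Subgroup.pow_index_mem H x
    obtain ⟨m, hm⟩ := hR ⟨x, hx⟩
    have hm' : x ^ p ^ m = 1 := by
      have := congrArg Subtype.val hm
      simpa using this
    have h2 : orderOf (x ^ p ^ b) ∣ Nat.card H := by
      have := orderOf_dvd_natCard (⟨x ^ p ^ b, h1⟩ : H)
      rwa [← Subgroup.orderOf_coe] at this
    have h3 : orderOf (x ^ p ^ b) ∣ p ^ m := by
      apply orderOf_dvd_of_pow_eq_one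
      rw [← pow_mul, mul_comm, pow_mul, hm', one_pow]
    have h4 : orderOf (x ^ p ^ b) = 1 :=
      Nat.Coprime.eq_one_of_dvd (Nat.Coprime.coprime_dvd_left h2 (Nat.Coprime.pow_right m hcop)) h3
    exact orderOf_eq_one_iff.mp h4
  -- Galois invariance on R
  have hgal : ∀ x ∈ R, ∀ j : ℕ, ¬ p ∣ j → θh (x ^ j) = θh x := by
    intro x hx j hj
    obtain ⟨k, hk1, hkj⟩ := Nat.chineseRemainder hcopb 1 j
    have hkc : k.Coprime (Nat.card Γ) := by
      rw [hcardΓ]
      apply Nat.Coprime.mul_right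
      · have := hk1.gcd_eq
        rw [Nat.Coprime, this]
        exact Nat.gcd_one_left _
      · have := hkj.gcd_eq
        rw [Nat.Coprime, this]
        exact Nat.Coprime.pow_right b ((Nat.Prime.coprime_iff_not_dvd hpp).2 hj).symm
    have h2 := canonical_ext_pow_of_coprime H hcopi hirr hres hdo k hkc hk1 x
    have h5 : x ^ k = x ^ j := pow_eq_pow_iff_modEq.2 (hkj.of_dvd (hord x hx))
    rw [h5] at h2
    exact h2
  -- the restriction to R and its kernel
  have hθhc := isCharacter_of_isIrrCharacter hirr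
  have hψ : Cfsg.IsCharacter R (fun x : R => θh x) := isCharacter_restrict R hθhc
  obtain ⟨K, hKn, hK⟩ := exists_ker_subgroup hψ
  haveI := hKn
  obtain ⟨ψb, hψb, hψbv⟩ := exists_isCharacter_deflate (N := K) hψ (fun x hx => (hK x).mp hx)
  have hfaith : ∀ q : R ⧸ K, ψb q = ψb 1 → q = 1 := by
    intro q hq
    obtain ⟨x, rfl⟩ := QuotientGroup.mk_surjective q
    have h1 : ψb ((1 : R) : R ⧸ K) = ψb 1 := rfl
    rw [hψbv x, ← h1, hψbv 1] at hq
    exact (QuotientGroup.eq_one_iff x).mpr ((hK x).mpr hq)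
  have hinvb : ∀ q : R ⧸ K, ∀ c : ℕ, orderOf q = p ^ c → ∀ j : ℕ, ¬ p ∣ j →
      ψb (q ^ j) = ψb q := by
    intro q c _ j hj
    obtain ⟨x, rfl⟩ := QuotientGroup.mk_surjective q
    have h1 : ((x : R ⧸ K)) ^ j = ((x ^ j : R) : R ⧸ K) := rfl
    rw [h1, hψbv, hψbv]
    show θh ((x ^ j : R) : Γ) = θh x
    rw [Subgroup.coe_pow]
    exact hgal x x.2 j hj
  have hdeg : Cfsg.charDegree ψb = Cfsg.charDegree θ := by
    have h1 : ψb 1 = θ 1 := by
      have h0 : ψb ((1 : R) : R ⧸ K) = ψb 1 := rfl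
      rw [← h0, hψbv 1]
      show θh ((1 : R) : Γ) = θ 1
      rw [OneMemClass.coe_one]
      have := hext' 1
      rwa [OneMemClass.coe_one] at this
    rw [char_one_eq_charDegree hψb,
      char_one_eq_charDegree (isCharacter_of_isIrrCharacter hθ')] at h1
    exact_mod_cast h1
  have hsb := schur_bound_of_inv p hpp hψb hfaith hinvb (Cfsg.charDegree θ) hdeg
  have hQp : IsPGroup p (R ⧸ K) := hR.to_quotient K
  obtain ⟨m, hm⟩ := IsPGroup.iff_card.mp hQp
  rw [hm, hpp.factorization_pow, Finsupp.single_eq_same] at hsb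
  have hKidx : K.index ≤ p ^ schurExp p (Cfsg.charDegree θ) := by
    rw [Subgroup.index_eq_card, hm]
    exact Nat.pow_le_pow_right hpp.pos hsb
  -- the kernel lies in D
  obtain ⟨Kh, hKhn, hKh⟩ := exists_ker_subgroup hθhc
  have hle : K.map R.subtype ≤ D := by
    rintro _ ⟨x, hx, rfl⟩
    apply hD _ x.2
    intro h
    have hxK : (x : Γ) ∈ Kh := by
      rw [hKh]
      have := (hK x).mp hx
      simpa using this
    have h2 : (x : Γ) * h * (x : Γ)⁻¹ * (h : Γ)⁻¹ ∈ Kh := by
      have h3 : (h : Γ) * (x : Γ)⁻¹ * (h : Γ)⁻¹ ∈ Kh := hKhn.conj_mem _ (Kh.inv_mem hxK) _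
      have h4 := Kh.mul_mem hxK h3
      have h5 : (x : Γ) * ((h : Γ) * (x : Γ)⁻¹ * (h : Γ)⁻¹) =
          (x : Γ) * h * (x : Γ)⁻¹ * (h : Γ)⁻¹ := by group
      rwa [h5] at h4
    have h6 := (hKh _).mp h2
    have h7 := hext' (⟨(x : Γ) * h * (x : Γ)⁻¹, hH.conj_mem h h.2 x⟩ * h⁻¹)
    have h8 := hext' 1
    rw [OneMemClass.coe_one] at h8
    rw [← h7, ← h8]
    exact h6
  have hrel : (K.map R.subtype).relIndex R = K.index := by
    unfold Subgroup.relIndex Subgroup.subgroupOf
    rw [Subgroup.comap_map_eq_self_of_injective R.subtype_injective]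
  have hne : (K.map R.subtype).relIndex R ≠ 0 := by
    rw [hrel]
    exact Subgroup.index_ne_zero_of_finite
  exact le_trans (Subgroup.relIndex_le_of_le_left hle hne) (hrel ▸ hKidx)

end Can

end Cfsg.Agent.Lib.Helper80
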