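import Mathlib
import Cfsg.Prelude.Def_Characters
import Cfsg.Agent.Lib.Helper75.CliffordCorr
import Cfsg.Agent.Lib.Helper75.CliffordCorr2
import Cfsg.Agent.Lib.Helper80.CharKer
import Cfsg.Agent.Lib.Helper80.CharOps
import Cfsg.Agent.Lib.Helper80.Winter2
import Cfsg.Agent.Lib.Helper80.PSolvCan
import Cfsg.Agent.Lib.Helper80.PSolvArith

/-!
# The key induction for the `p`-solvable Sylow bound

`H` a normal `p'`-subgroup of `p`-power index in `Γ`, `R` a `p`-subgroup, `χ` a character of
`Γ`: the subgroup of `R` acting trivially on `H` modulo the kernel of `χ` has index at most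
`p ^ schurExp p χ(1)` in `R`.
-/

set_option autoImplicit false
set_option linter.style.haveILetI false

namespace Cfsg.Agent.Lib.Helper80

open Cfsg.Agent.Lib.Helper3

universe u

section CMod

variable {Γ : Type u} [Group Γ]

/-- The centralizer of `H` modulo the normal subgroup `K`. -/
def cmod (K H : Subgroup Γ) [hK : K.Normal] : Subgroup Γ where
  carrier := {x | ∀ h ∈ H, x * h * x⁻¹ * h⁻¹ ∈ K}
  one_mem' := by
    intro h _
    simp
  mul_mem' := by
    intro x y hx hy h hh
    have h1 : x * y * h * (x * y)⁻¹ * h⁻¹ =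
        x * (y * h * y⁻¹ * h⁻¹) * x⁻¹ * (x * h * x⁻¹ * h⁻¹) := by group
    rw [h1]
    exact K.mul_mem (hK.conj_mem _ (hy h hh) x) (hx h hh)
  inv_mem' := by
    intro x hx h hh
    have h1 : x⁻¹ * h * x⁻¹⁻¹ * h⁻¹ = x⁻¹ * (x * h * x⁻¹ * h⁻¹)⁻¹ * x⁻¹⁻¹ := by group
    rw [h1]
    exact hK.conj_mem _ (K.inv_mem (hx h hh)) x⁻¹

theorem mem_cmod {K H : Subgroup Γ} [K.Normal] {x : Γ} :
    x ∈ cmod K H ↔ ∀ h ∈ H, x * h * x⁻¹ * h⁻¹ ∈ K := Iff.rfl

end CMod

section Aux

theorem eq_of_re_eq_of_norm_le {z : ℂ} {a : ℝ} (h1 : z.re = a) (h2 : ‖z‖ ≤ a) : z = a := by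
  have h3 : ‖z‖ ^ 2 = z.re * z.re + z.im * z.im := by
    rw [Complex.sq_norm, Complex.normSq_apply]
  have ha : 0 ≤ a := le_trans (norm_nonneg z) h2
  have h4 : ‖z‖ ^ 2 ≤ a ^ 2 := pow_le_pow_left₀ (norm_nonneg z) h2 2
  have h5 : z.im * z.im ≤ 0 := by
    rw [h3, h1] at h4
    nlinarith
  have h6 : z.im = 0 := by
    have := mul_self_nonneg z.im
    exact mul_self_eq_zero.mp (le_antisymm h5 this)
  apply Complex.ext
  · rw [h1, Complex.ofReal_re]
  · rw [h6, Complex.ofReal_im]

variable {G : Type u} [Group G] [Finite G]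

/-- The kernel of a sum of characters is the intersection of the kernels. -/
theorem char_add_eq_one {α β : G → ℂ} (hα : Cfsg.IsCharacter G α) (hβ : Cfsg.IsCharacter G β)
    (g : G) (h : α g + β g = α 1 + β 1) : α g = α 1 ∧ β g = β 1 := by
  have a1 := char_one_eq_charDegree hα
  have b1 := char_one_eq_charDegree hβ
  have na := norm_char_le_charDegree hα g
  have nb := norm_char_le_charDegree hβ g
  rw [a1, b1] at h
  have hre := congrArg Complex.re h
  simp only [Complex.add_re, Complex.natCast_re] at hre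
  have ra := Complex.re_le_norm (α g)
  have rb := Complex.re_le_norm (β g)
  have ea : (α g).re = (Cfsg.charDegree α : ℝ) := by linarith
  have eb : (β g).re = (Cfsg.charDegree β : ℝ) := by linarith
  constructor
  · rw [a1, eq_of_re_eq_of_norm_le ea na]; simp
  · rw [b1, eq_of_re_eq_of_norm_le eb nb]; simp

/-- A character of degree zero vanishes. -/
theorem char_eq_zero_of_charDegree {χ : G → ℂ} (hχ : Cfsg.IsCharacter G χ)
    (h : Cfsg.charDegree χ = 0) (g : G) : χ g = 0 := by
  have := norm_char_le_charDegree hχ g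
  rw [h, Nat.cast_zero] at this
  exact norm_le_zero_iff.mp this

/-- A reducible character of positive degree is a sum of two characters of positive degree. -/
theorem exists_add_of_not_irr {χ : G → ℂ} (hχ : Cfsg.IsCharacter G χ)
    (h0 : Cfsg.charDegree χ ≠ 0) (hirr : ¬ Cfsg.IsIrrCharacter G χ) :
    ∃ α β : G → ℂ, Cfsg.IsCharacter G α ∧ Cfsg.IsCharacter G β ∧ χ = α + β ∧
      Cfsg.charDegree α ≠ 0 ∧ Cfsg.charDegree β ≠ 0 := by
  classical
  haveI : Fintype G := Fintype.ofFinite G
  haveI : Fintype (Cfsg.IrrCharacter G) := Fintype.ofFinite _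
  obtain ⟨m, -, hsum⟩ := character_expansion hχ
  have hex : ∃ ψ₀, m ψ₀ ≠ 0 := by
    by_contra hcon
    push Not at hcon
    apply h0
    have h1 := congrFun hsum 1
    simp only [hcon, Nat.cast_zero, zero_smul, Finset.sum_const_zero, Pi.zero_apply] at h1
    have h2 := char_one_eq_charDegree hχ
    rw [h1] at h2
    exact_mod_cast h2.symm
  obtain ⟨ψ₀, hψ₀⟩ := hex
  set m' : Cfsg.IrrCharacter G → ℕ := fun ψ => m ψ - (if ψ = ψ₀ then 1 else 0) with hm'
  set β : G → ℂ := ∑ ψ : Cfsg.IrrCharacter G, (m' ψ : ℂ) • (ψ : G → ℂ) with hβ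
  have hβc : Cfsg.IsCharacter G β :=
    isCharacter_sum _ _ fun ψ _ => isCharacter_nsmul (isCharacter_of_isIrrCharacter ψ.2) (m' ψ)
  have hm : ∀ ψ, (m ψ : ℂ) = (if ψ = ψ₀ then 1 else 0) + (m' ψ : ℂ) := by
    intro ψ
    by_cases hψ : ψ = ψ₀
    · subst hψ
      have : m ψ = 1 + (m ψ - 1) := by omega
      simp only [hm', if_true]
      exact_mod_cast this
    · simp [hm', hψ]
  have hdec : χ = (ψ₀ : G → ℂ) + β := by
    rw [hsum, hβ]
    funext g
    simp only [Finset.sum_apply, Pi.smul_apply, Pi.add_apply, smul_eq_mul]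
    rw [Finset.sum_congr rfl (fun ψ _ => by rw [hm ψ, add_mul]), Finset.sum_add_distrib]
    congr 1
    simp [Finset.sum_ite_eq']
  refine ⟨ψ₀, β, isCharacter_of_isIrrCharacter ψ₀.2, hβc, hdec, (charDegree_pos ψ₀.2).ne', ?_⟩
  intro hb
  apply hirr
  have : χ = (ψ₀ : G → ℂ) := by
    rw [hdec]
    funext g
    rw [Pi.add_apply, char_eq_zero_of_charDegree hβc hb g, add_zero]
  rw [this]
  exact ψ₀.2

/-- In a finite `p`-group every proper subgroup lies in a normal subgroup of index `p`. -/
theorem exists_normal_index_p_ge (p : ℕ) [hp : Fact p.Prime] (hG : IsPGroup p G)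
    (S : Subgroup G) (hS : S ≠ ⊤) : ∃ M : Subgroup G, M.Normal ∧ M.index = p ∧ S ≤ M := by
  have hpp := hp.out
  obtain ⟨b, hb⟩ := IsPGroup.iff_card.mp hG
  obtain ⟨s, hs⟩ := IsPGroup.iff_card.mp (hG.to_subgroup S)
  have hsb : s < b := by
    have h1 : p ^ s ∣ p ^ b := by
      rw [← hs, ← hb]; exact Subgroup.card_subgroup_dvd_card S
    have h2 : s ≤ b := (Nat.pow_dvd_pow_iff_le_right hpp.one_lt).mp h1
    rcases Nat.lt_or_ge s b with h | h
    · exact h
    · exfalso
      apply hS
      apply Subgroup.eq_top_of_card_eq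
      rw [hs, hb, le_antisymm h2 h]
  obtain ⟨M, hM, hSM⟩ := Sylow.exists_subgroup_card_pow_prime_le p (m := b - 1)
    (by rw [hb]; exact pow_dvd_pow p (Nat.sub_le b 1)) S hs (by omega)
  have hidx : M.index = p := by
    have h1 := Subgroup.card_mul_index M
    rw [hM, hb] at h1
    have h2 : p ^ b = p ^ (b - 1) * p := by
      rw [← pow_succ]; congr 1; omega
    rw [h2] at h1
    exact Nat.eq_of_mul_eq_mul_left (pow_pos hpp.pos _) h1
  refine ⟨M, ?_, hidx, hSM⟩
  apply Subgroup.normal_of_index_eq_minFac_card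
  rw [hidx, hb, hpp.pow_minFac (by omega)]

end Aux

section Vanish

variable {Γ : Type u} [Group Γ] [Fintype Γ] (H : Subgroup Γ) [hH : H.Normal] [Fintype H]

/-- An irreducible character vanishes off any normal subgroup containing the inertia group of
a constituent of its restriction to a normal subgroup. -/
theorem char_eq_zero_of_inertia_le {χ : Γ → ℂ} (hχ : Cfsg.IsIrrCharacter Γ χ) {θ : H → ℂ}
    (hθ : Cfsg.IsIrrCharacter H θ) (hc : Cfsg.classInner (fun n : H => χ n) θ ≠ 0)
    (N : Subgroup Γ) [hN : N.Normal] (hTN : Cfsg.Agent.Lib.Helper75.inertia H θ ≤ N) {g : Γ}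
    (hg : g ∉ N) : χ g = 0 := by
  classical
  set T := Cfsg.Agent.Lib.Helper75.inertia H θ with hT
  haveI : Fintype T := Fintype.ofFinite T
  have hHT : H ≤ T := Cfsg.Agent.Lib.Helper75.le_inertia H
    (isClassFunction_of_isCharacter (isCharacter_of_isIrrCharacter hθ))
  obtain ⟨ψ, -, hind, -⟩ := Cfsg.Agent.Lib.Helper75.clifford_correspondence H T hHT hχ hθ
    (fun g => Iff.rfl) hc
  rw [← hind]
  unfold Cfsg.indFun
  apply mul_eq_zero_of_right
  apply Finset.sum_eq_zero
  intro x _
  apply extendByZero_apply_not_mem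
  intro hx
  apply hg
  have h1 := hN.conj_mem _ (hTN hx) x
  have h2 : x * (x⁻¹ * g * x) * x⁻¹ = g := by group
  rwa [h2] at h1

end Vanish

section Key

/-- **The key induction.** -/
theorem relIndex_cmod_le (p : ℕ) [hp : Fact p.Prime] : ∀ (n : ℕ) (Γ : Type u) [Group Γ]
    [Finite Γ] (H : Subgroup Γ) [H.Normal] (R : Subgroup Γ), (Nat.card H).Coprime p →
    (∃ b : ℕ, H.index = p ^ b) → IsPGroup p R → ∀ χ : Γ → ℂ, Cfsg.IsCharacter Γ χ →
    Cfsg.charDegree χ = n → ∀ (K : Subgroup Γ) [K.Normal], (∀ g : Γ, χ g = χ 1 → g ∈ K) →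
    (cmod K H).relIndex R ≤ p ^ schurExp p n := by
  intro n
  induction n using Nat.strong_induction_on with
  | _ n ih =>
  intro Γ _ _ H hH R hcop hidx hR χ hχ hn K hKn hK
  classical
  have hpp := hp.out
  have hp2 : 2 ≤ p := hpp.two_le
  haveI : Fintype Γ := Fintype.ofFinite Γ
  haveI : Fintype H := Fintype.ofFinite H
  have hne : ∀ A : Subgroup Γ, A.relIndex R ≠ 0 := fun A => by
    unfold Subgroup.relIndex
    exact Subgroup.index_ne_zero_of_finite
  by_cases hirr : Cfsg.IsIrrCharacter Γ χ
  swap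
  · -- reducible or zero
    by_cases h0 : n = 0
    · have hall : cmod K H = ⊤ := by
        rw [eq_top_iff]
        intro x _ h hh
        apply hK
        rw [char_eq_zero_of_charDegree hχ (hn.trans h0),
          char_eq_zero_of_charDegree hχ (hn.trans h0)]
      rw [hall, Subgroup.relIndex_top_left]
      exact Nat.one_le_pow _ _ hpp.pos
    · obtain ⟨α, β, hα, hβ, hdec, ha0, hb0⟩ := exists_add_of_not_irr hχ (hn ▸ h0) hirr
      have hdeg : Cfsg.charDegree α + Cfsg.charDegree β = n := by
        have h1 := congrFun hdec 1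
        rw [Pi.add_apply, char_one_eq_charDegree hχ, char_one_eq_charDegree hα,
          char_one_eq_charDegree hβ, hn] at h1
        exact_mod_cast h1.symm
      obtain ⟨Kα, hKαn, hKα⟩ := exists_ker_subgroup hα
      obtain ⟨Kβ, hKβn, hKβ⟩ := exists_ker_subgroup hβ
      haveI := hKαn
      haveI := hKβn
      have iα := ih (Cfsg.charDegree α) (by omega) Γ H R hcop hidx hR α hα rfl Kα
        (fun g hg => (hKα g).mpr hg)
      have iβ := ih (Cfsg.charDegree β) (by omega) Γ H R hcop hidx hR β hβ rfl Kβ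
        (fun g hg => (hKβ g).mpr hg)
      have hle : cmod Kα H ⊓ cmod Kβ H ≤ cmod K H := by
        intro x hx h hh
        apply hK
        have h1 := (hKα _).mp (hx.1 h hh)
        have h2 := (hKβ _).mp (hx.2 h hh)
        rw [hdec, Pi.add_apply, Pi.add_apply, h1, h2]
      calc (cmod K H).relIndex R ≤ (cmod Kα H ⊓ cmod Kβ H).relIndex R :=
            Subgroup.relIndex_le_of_le_left hle (hne _)
        _ ≤ (cmod Kα H).relIndex R * (cmod Kβ H).relIndex R := Subgroup.relIndex_inf_le
        _ ≤ p ^ schurExp p (Cfsg.charDegree α) * p ^ schurExp p (Cfsg.charDegree β) :=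
            Nat.mul_le_mul iα iβ
        _ = p ^ (schurExp p (Cfsg.charDegree α) + schurExp p (Cfsg.charDegree β)) :=
            (pow_add _ _ _).symm
        _ ≤ p ^ schurExp p n :=
            Nat.pow_le_pow_right hpp.pos (hdeg ▸ schurExp_add_le hp2 _ _)
  · -- irreducible
    obtain ⟨θ, hθ, hθc⟩ := exists_constituent_restrict H hirr
    obtain ⟨e, he0, he, hdegχ⟩ := constit_degree H hirr hθ hθc
    obtain ⟨b, hb⟩ := hidx
    by_cases hT : ∀ g : Γ, Cfsg.Agent.Lib.Helper75.conjChar H θ g = θ
    · -- invariant case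
      have hres := Cfsg.Agent.Lib.Helper75.res_eq_smul_of_invariant H hirr hθ hθc hT
      have hD : ∀ x ∈ R,
          (∀ h : H, θ (⟨x * h * x⁻¹, hH.conj_mem h h.2 x⟩ * h⁻¹) = θ 1) → x ∈ cmod K H := by
        intro x _ hx h hh
        apply hK
        have h1 := congrFun hres (⟨x * h * x⁻¹, hH.conj_mem h hh x⟩ * (⟨h, hh⟩ : H)⁻¹)
        have h2 := congrFun hres 1
        simp only [Pi.smul_apply, smul_eq_mul] at h1 h2
        have h3 := hx ⟨h, hh⟩
        have h4 : ((⟨x * h * x⁻¹, hH.conj_mem h hh x⟩ * (⟨h, hh⟩ : H)⁻¹ : H) : Γ) =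
            x * h * x⁻¹ * h⁻¹ := rfl
        rw [h4] at h1
        rw [h1, h3, ← h2]
        rfl
      have key := relIndex_le_of_invariant H p hb hcop R hR hθ hT (cmod K H) hD
      have hle : Cfsg.charDegree θ ≤ n := by
        rw [← hn, hdegχ]
        have hi : 0 < (Cfsg.Agent.Lib.Helper75.inertia H θ).index :=
          Nat.pos_of_ne_zero Subgroup.index_ne_zero_of_finite
        exact Nat.le_mul_of_pos_left _ (Nat.mul_pos (Nat.pos_of_ne_zero he0) hi)
      exact le_trans key (Nat.pow_le_pow_right hpp.pos (schurExp_mono hp2 hle))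
    · -- non-invariant case
      set T := Cfsg.Agent.Lib.Helper75.inertia H θ with hTdef
      have hHT : H ≤ T := Cfsg.Agent.Lib.Helper75.le_inertia H
        (isClassFunction_of_isCharacter (isCharacter_of_isIrrCharacter hθ))
      have hTtop : T ≠ ⊤ := fun h =>
        hT ((Cfsg.Agent.Lib.Helper75.inertia_eq_top_iff H θ).mp h)
      have hQ : IsPGroup p (Γ ⧸ H) :=
        IsPGroup.of_card (by rw [← Subgroup.index_eq_card]; exact hb)
      have hTbar : T.map (QuotientGroup.mk' H) ≠ ⊤ := by
        intro h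
        apply hTtop
        have h1 := QuotientGroup.comap_map_mk' H T
        rw [h, Subgroup.comap_top, sup_eq_right.mpr hHT] at h1
        exact h1.symm
      obtain ⟨M, hMn, hMidx, hTM⟩ := exists_normal_index_p_ge p hQ _ hTbar
      set N : Subgroup Γ := M.comap (QuotientGroup.mk' H) with hNdef
      haveI hNn : N.Normal := hMn.comap _
      have hNidx : N.index = p := by
        rw [hNdef, Subgroup.index_comap_of_surjective M (QuotientGroup.mk'_surjective H)]
        exact hMidx
      have hTN : T ≤ N := le_trans (Subgroup.le_comap_map _ T) (Subgroup.comap_mono hTM)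
      have hHN : H ≤ N := le_trans hHT hTN
      haveI : Fintype N := Fintype.ofFinite N
      have hvan : ∀ g : Γ, g ∉ N → χ g = 0 := fun g hg =>
        char_eq_zero_of_inertia_le H hirr hθ hθc N hTN hg
      obtain ⟨φ, hφ, hφc⟩ := exists_constituent_restrict N hirr
      obtain ⟨eN, heN0, heN, hdegN⟩ := constit_degree N hirr hφ hφc
      by_cases hφinv : ∀ g : Γ, Cfsg.Agent.Lib.Helper75.conjChar N φ g = φ
      · exfalso
        have hres := Cfsg.Agent.Lib.Helper75.res_eq_smul_of_invariant N hirr hφ hφc hφinv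
        rw [heN] at hres
        have h1 := sum_norm_sq_eq_card hirr
        have h2 := sum_norm_sq_eq_card hφ
        have h3 : ∑ g : Γ, ‖χ g‖ ^ 2 = ∑ n : N, ‖χ n‖ ^ 2 := by
          rw [← Finset.sum_subtype (Finset.univ.filter (· ∈ N)) (by simp) (fun g => ‖χ g‖ ^ 2)]
          rw [Finset.sum_filter_of_ne]
          intro g _ hg
          by_contra hgN
          exact hg (by rw [hvan g hgN]; simp)
        have h4 : ∑ n : N, ‖χ n‖ ^ 2 = (eN : ℝ) ^ 2 * ∑ n : N, ‖φ n‖ ^ 2 := by
          rw [Finset.mul_sum]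
          refine Finset.sum_congr rfl fun n _ => ?_
          have := congrFun hres n
          simp only [Pi.smul_apply, smul_eq_mul] at this
          rw [this, norm_mul, mul_pow, Complex.norm_natCast]
        have h5 : (Nat.card Γ : ℝ) = (eN : ℝ) ^ 2 * (Nat.card N : ℝ) := by
          rw [← h1, h3, h4, h2]
        have h6 : Nat.card Γ = eN ^ 2 * Nat.card N := by exact_mod_cast h5
        have h7 := Subgroup.card_mul_index N
        rw [hNidx, h6, mul_comm] at h7
        have h8 : p = eN ^ 2 := Nat.eq_of_mul_eq_mul_right Nat.card_pos h7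
        have h9 : eN ∣ p := ⟨eN, by rw [h8]; ring⟩
        rcases (Nat.dvd_prime hpp).mp h9 with h | h
        · rw [h] at h8
          exact hpp.one_lt.ne' (by simpa using h8)
        · rw [h] at h8
          nlinarith [hpp.two_le]
      · -- φ not invariant: p conjugates
        set I := Cfsg.Agent.Lib.Helper75.inertia N φ with hIdef
        have hNI : N ≤ I := Cfsg.Agent.Lib.Helper75.le_inertia N
          (isClassFunction_of_isCharacter (isCharacter_of_isIrrCharacter hφ))
        have hItop : I ≠ ⊤ := fun h =>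
          hφinv ((Cfsg.Agent.Lib.Helper75.inertia_eq_top_iff N φ).mp h)
        have hIidx : I.index = p := by
          have h1 : I.index ∣ p := hNidx ▸ Subgroup.index_dvd_of_le hNI
          rcases (Nat.dvd_prime hpp).mp h1 with h | h
          · exact absurd (Subgroup.index_eq_one.mp h) hItop
          · exact h
        haveI : Fintype (Cfsg.Agent.Lib.Helper75.Constit N χ) := Fintype.ofFinite _
        have hres := Cfsg.Agent.Lib.Helper75.res_eq_smul_sum_constit N hirr hφ hφc
        rw [heN] at hres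
        have hcard : Fintype.card (Cfsg.Agent.Lib.Helper75.Constit N χ) = p := by
          rw [← Nat.card_eq_fintype_card,
            Cfsg.Agent.Lib.Helper75.card_constit_eq_index_inertia N hirr hφ hφc, hIidx]
        set k := eN * Cfsg.charDegree φ with hk
        have hnk : n = p * k := by
          rw [← hn, hdegN, hIidx, hk]; ring
        have hk1 : 1 ≤ k := Nat.mul_pos (Nat.pos_of_ne_zero heN0) (charDegree_pos hφ)
        have hkn : k < n := by
          rw [hnk]; nlinarith
        have hchar : ∀ θ' : Cfsg.Agent.Lib.Helper75.Constit N χ,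
            Cfsg.IsCharacter N ((eN : ℂ) • (θ'.1 : N → ℂ)) :=
          fun θ' => isCharacter_nsmul (isCharacter_of_isIrrCharacter θ'.1.2) eN
        have hdeg' : ∀ θ' : Cfsg.Agent.Lib.Helper75.Constit N χ,
            Cfsg.charDegree ((eN : ℂ) • (θ'.1 : N → ℂ)) = k := by
          intro θ'
          obtain ⟨g, hg⟩ := Cfsg.Agent.Lib.Helper75.clifford_conj N hirr hφ θ'.1.2 hφc θ'.2
          have h1 : (θ'.1 : N → ℂ) 1 = φ 1 := by
            rw [← hg, Cfsg.Agent.Lib.Helper75.conjChar_apply_one]
          have h2 := char_one_eq_charDegree (hchar θ')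
          rw [Pi.smul_apply, smul_eq_mul, h1,
            char_one_eq_charDegree (isCharacter_of_isIrrCharacter hφ)] at h2
          rw [hk]
          exact_mod_cast h2.symm
        choose Kf hKfn hKf using fun θ' : Cfsg.Agent.Lib.Helper75.Constit N χ =>
          exists_ker_subgroup (hchar θ')
        have hcopN : (Nat.card (H.subgroupOf N)).Coprime p := by
          rw [Nat.card_congr (Subgroup.subgroupOfEquivOfLe hHN).toEquiv]
          exact hcop
        have hidxN : ∃ b' : ℕ, (H.subgroupOf N).index = p ^ b' := by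
          have h1 := Subgroup.relIndex_mul_index hHN
          rw [hb] at h1
          have h2 : H.relIndex N ∣ p ^ b := ⟨_, h1.symm⟩
          obtain ⟨b', -, hb'⟩ := (Nat.dvd_prime_pow hpp).mp h2
          exact ⟨b', hb'⟩
        have hRN : IsPGroup p (R.subgroupOf N) :=
          hR.comap_of_injective N.subtype N.subtype_injective
        have hIH : ∀ θ' : Cfsg.Agent.Lib.Helper75.Constit N χ,
            (@cmod _ _ (Kf θ') (H.subgroupOf N) (hKfn θ')).relIndex (R.subgroupOf N) ≤
              p ^ schurExp p k := by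
          intro θ'
          haveI := hKfn θ'
          exact ih k hkn N (H.subgroupOf N) (R.subgroupOf N) hcopN hidxN hRN _ (hchar θ')
            (hdeg' θ') (Kf θ') (fun g hg => (hKf θ' g).mpr hg)
        set E : Subgroup N := ⨅ θ' : Cfsg.Agent.Lib.Helper75.Constit N χ,
          @cmod _ _ (Kf θ') (H.subgroupOf N) (hKfn θ') with hE
        have hEidx : E.relIndex (R.subgroupOf N) ≤ (p ^ schurExp p k) ^ p := by
          calc E.relIndex (R.subgroupOf N)
              ≤ ∏ θ' : Cfsg.Agent.Lib.Helper75.Constit N χ,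
                (@cmod _ _ (Kf θ') (H.subgroupOf N) (hKfn θ')).relIndex (R.subgroupOf N) :=
                Subgroup.relIndex_iInf_le _
            _ ≤ ∏ _θ' : Cfsg.Agent.Lib.Helper75.Constit N χ, p ^ schurExp p k :=
                Finset.prod_le_prod' (fun θ' _ => hIH θ')
            _ = (p ^ schurExp p k) ^ p := by
                rw [Finset.prod_const, Finset.card_univ, hcard]
        have hmap : E.map N.subtype ≤ cmod K H := by
          rintro _ ⟨y, hy, rfl⟩ h hh
          apply hK
          set h' : N := ⟨h, hHN hh⟩ with hh'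
          have hmem : ∀ θ' : Cfsg.Agent.Lib.Helper75.Constit N χ,
              ((eN : ℂ) • (θ'.1 : N → ℂ)) (y * h' * y⁻¹ * h'⁻¹) =
                ((eN : ℂ) • (θ'.1 : N → ℂ)) 1 := by
            intro θ'
            have h1 : y ∈ @cmod _ _ (Kf θ') (H.subgroupOf N) (hKfn θ') := by
              have hy' : y ∈ ⨅ θ' : Cfsg.Agent.Lib.Helper75.Constit N χ,
                  @cmod _ _ (Kf θ') (H.subgroupOf N) (hKfn θ') := hy
              rw [Subgroup.mem_iInf] at hy'
              exact hy' θ'
            exact (hKf θ' _).mp (h1 h' (Subgroup.mem_subgroupOf.mpr hh))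
          have h2 := congrFun hres (y * h' * y⁻¹ * h'⁻¹)
          have h3 := congrFun hres 1
          simp only [Pi.smul_apply, Finset.sum_apply, smul_eq_mul, Finset.mul_sum] at h2 h3 hmem
          have h4 : ((y * h' * y⁻¹ * h'⁻¹ : N) : Γ) = (y : Γ) * h * (y : Γ)⁻¹ * h⁻¹ := rfl
          show χ ((y : Γ) * h * (y : Γ)⁻¹ * h⁻¹) = χ 1
          rw [← h4, h2, Finset.sum_congr rfl (fun θ' _ => hmem θ'), ← h3]
          rfl
        have h1 : (cmod K H).relIndex R ≤ (E.map N.subtype).relIndex R :=
          Subgroup.relIndex_le_of_le_left hmap (hne _)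
        have h2 : (E.map N.subtype).relIndex (N ⊓ R) * N.relIndex R =
            (E.map N.subtype).relIndex R := by
          have := Subgroup.relIndex_inf_mul_relIndex (E.map N.subtype) N R
          rwa [inf_eq_left.mpr (Subgroup.map_subtype_le E)] at this
        have h3 : (E.map N.subtype).relIndex (N ⊓ R) = E.relIndex (R.subgroupOf N) := by
          have := Subgroup.relIndex_comap (E.map N.subtype) N.subtype (R.subgroupOf N)
          rw [Subgroup.comap_map_eq_self_of_injective N.subtype_injective,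
            Subgroup.subgroupOf_map_subtype] at this
          rw [this, inf_comm]
        have h4 : N.relIndex R ≤ p :=
          Nat.le_of_dvd hpp.pos (hNidx ▸ Subgroup.relIndex_dvd_index_of_normal N R)
        calc (cmod K H).relIndex R ≤ (E.map N.subtype).relIndex R := h1
          _ = E.relIndex (R.subgroupOf N) * N.relIndex R := by rw [← h2, h3]
          _ ≤ (p ^ schurExp p k) ^ p * p := Nat.mul_le_mul hEidx h4
          _ = p ^ (p * schurExp p k + 1) := by rw [← pow_mul, pow_succ, mul_comm (schurExp p k)]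
          _ ≤ p ^ schurExp p n :=
              Nat.pow_le_pow_right hpp.pos (hnk ▸ schurExp_prime_mul hp2 hk1)

end Key

end Cfsg.Agent.Lib.Helper80
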