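import Mathlib
import Cfsg.Prelude.Def_Characters
import Cfsg.Prelude.Def_Blocks
import Cfsg.Agent.Lib.Helper80.Orthogonality
import Cfsg.Agent.Lib.Helper80.OneDegree
import Cfsg.Agent.Lib.Helper80.CharOps
import Cfsg.Agent.Lib.Helper15.LinChar
import Cfsg.Agent.S0142

/-!
# Irreducible linear groups of prime degree `p` with order divisible by `p ^ 2`

Such a group has a nontrivial centre.
-/

set_option autoImplicit false
set_option linter.style.haveILetI false

open scoped ComplexConjugate

namespace Cfsg.Agent.Lib.Helper80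

universe u

section PrimeDegCenter

variable {G : Type u} [Group G] [Finite G]

/-- If the centre is trivial, a faithful irreducible character of prime degree `p` vanishes at
every non-identity element centralizing a Sylow `p`-subgroup. -/
theorem char_eq_zero_of_centralizes_sylow (p : ℕ) [Fact p.Prime] (χ : Cfsg.IrrCharacter G)
    (hdeg : χ.1 1 = p) (hfaith : ∀ g : G, χ.1 g = χ.1 1 → g = 1)
    (hZ : Subgroup.center G = ⊥) (P : Sylow p G) {x : G}
    (hx : ∀ y ∈ (P : Subgroup G), y * x = x * y) (hx1 : x ≠ 1) : χ.1 x = 0 := by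
  obtain ⟨n, ρ, hirr, hχ⟩ := χ.2
  haveI := hirr
  have hn : Module.finrank ℂ (Fin n → ℂ) = p := by
    have h1 : ρ.character 1 = (p : ℂ) := by rw [hχ]; exact hdeg
    rw [Representation.char_one] at h1
    exact_mod_cast h1
  have hle : (P : Subgroup G) ≤ Subgroup.centralizer ({x} : Set G) := by
    intro y hy
    rw [Subgroup.mem_centralizer_iff]
    intro h hh
    rw [Set.mem_singleton_iff] at hh
    rw [hh]
    exact (hx y hy).symm
  have hcop : Nat.Coprime (Module.finrank ℂ (Fin n → ℂ))
      (Subgroup.centralizer ({x} : Set G)).index := by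
    rw [hn]
    apply (Nat.Prime.coprime_iff_not_dvd Fact.out).mpr
    intro hdvd
    exact P.not_dvd_index (hdvd.trans (Subgroup.index_dvd_of_le hle))
  rcases Cfsg.Agent.S0142.result ρ x hcop with h0 | h1
  · rw [← hχ]; exact h0
  · exfalso
    obtain ⟨c, hc⟩ := (norm_char_eq_finrank_iff ρ x).mp h1
    have hinj : ∀ a b : G, ρ a = ρ b → a = b := by
      intro a b hab
      have h2 : ρ (a * b⁻¹) = 1 := by
        rw [map_mul, hab, ← map_mul, mul_inv_cancel, map_one]
      have h3 : ρ.character (a * b⁻¹) = Module.finrank ℂ (Fin n → ℂ) :=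
        (char_eq_finrank_iff ρ _).mpr h2
      have h4 : χ.1 (a * b⁻¹) = χ.1 1 := by
        rw [← hχ, h3, Representation.char_one]
      have h5 := hfaith _ h4
      exact mul_inv_eq_one.mp h5
    have hcen : x ∈ Subgroup.center G := by
      rw [Subgroup.mem_center_iff]
      intro g
      apply hinj
      rw [map_mul, map_mul, hc]
      simp
    rw [hZ, Subgroup.mem_bot] at hcen
    exact hx1 hcen

/-- A finite group with a faithful irreducible character of prime degree `p` and order divisible
by `p ^ 2` has a nontrivial centre. -/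
theorem center_ne_bot_of_prime_degree (p : ℕ) (hp : p.Prime) (χ : Cfsg.IrrCharacter G)
    (hdeg : χ.1 1 = p) (hfaith : ∀ g : G, χ.1 g = χ.1 1 → g = 1)
    (hdiv : p ^ 2 ∣ Nat.card G) : Subgroup.center G ≠ ⊥ := by
  classical
  intro hZ
  haveI : Fact p.Prime := ⟨hp⟩
  obtain ⟨P⟩ := (inferInstance : Nonempty (Sylow p G))
  haveI : Fintype (P : Subgroup G) := Fintype.ofFinite _
  haveI : Fintype (Cfsg.IrrCharacter (P : Subgroup G)) := Fintype.ofFinite _
  have hPdvd : p ^ 2 ∣ Nat.card (P : Subgroup G) := P.pow_dvd_card_of_pow_dvd_card hdiv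
  have hPcard : Nat.card (P : Subgroup G) = p ^ (Nat.card G).factorization p :=
    P.card_eq_multiplicity
  have hpC : (p : ℂ) ≠ 0 := by exact_mod_cast hp.ne_zero
  -- the restriction to `P`
  have hφ : Cfsg.IsCharacter (P : Subgroup G) (fun x : (P : Subgroup G) => χ.1 x) :=
    isCharacter_restrict (P : Subgroup G) (isCharacter_of_isIrrCharacter χ.2)
  have hφ1 : (fun x : (P : Subgroup G) => χ.1 x) 1 = (p : ℂ) := hdeg
  have hφdeg : Cfsg.charDegree (fun x : (P : Subgroup G) => χ.1 x) = p := by
    have h1 := char_one_eq_charDegree hφ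
    have h2 : χ.1 ((1 : (P : Subgroup G)) : G) = p := hdeg
    rw [h2] at h1
    exact_mod_cast h1.symm
  -- vanishing on the centre of `P`
  have hvan : ∀ z : (P : Subgroup G), z ∈ Subgroup.center (P : Subgroup G) → z ≠ 1 →
      χ.1 (z : G) = 0 := by
    intro z hz hz1
    apply char_eq_zero_of_centralizes_sylow p χ hdeg hfaith hZ P
    · intro y hy
      have := Subgroup.mem_center_iff.mp hz ⟨y, hy⟩
      exact congrArg Subtype.val this
    · intro h
      exact hz1 (Subtype.ext h)
  obtain ⟨m, hm, hexp⟩ := character_expansion hφ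
  have hsum := charDegree_eq_sum hφ m hexp
  rw [hφdeg] at hsum
  by_cases hbig : ∃ ψ : Cfsg.IrrCharacter (P : Subgroup G), m ψ ≠ 0 ∧ p ≤ Cfsg.charDegree ψ.1
  · -- the restriction is irreducible
    obtain ⟨ψ, hmψ, hψp⟩ := hbig
    have hne : Cfsg.classInner (fun x : (P : Subgroup G) => χ.1 x) ψ.1 ≠ 0 := by
      rw [hm ψ]
      exact_mod_cast hmψ
    have heq := eq_of_constituent_of_degree_le hφ ψ.2 hne (by rw [hφdeg]; exact hψp)
    have hirr : Cfsg.IsIrrCharacter (P : Subgroup G) (fun x : (P : Subgroup G) => χ.1 x) := by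
      rw [heq]; exact ψ.2
    haveI : Nontrivial (P : Subgroup G) := by
      rw [← Finite.one_lt_card_iff_nontrivial]
      have : p ^ 2 ≤ Nat.card (P : Subgroup G) := Nat.le_of_dvd Nat.card_pos hPdvd
      have h2 : 1 < p ^ 2 := Nat.one_lt_pow (by norm_num) hp.one_lt
      omega
    haveI := IsPGroup.center_nontrivial (P.isPGroup')
    obtain ⟨z, hz1⟩ := exists_ne (1 : Subgroup.center (P : Subgroup G))
    have hnorm := norm_char_central hirr z.2
    have hz0 : χ.1 ((z : (P : Subgroup G)) : G) = 0 :=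
      hvan z z.2 (fun h => hz1 (Subtype.ext h))
    have h2 : χ.1 ((1 : (P : Subgroup G)) : G) = p := hdeg
    rw [hz0, h2, norm_zero] at hnorm
    have : ‖(p : ℂ)‖ ≠ 0 := norm_ne_zero_iff.mpr hpC
    exact this hnorm.symm
  · -- all constituents are linear, so `P` is abelian
    push Not at hbig
    have hlin : ∀ ψ : Cfsg.IrrCharacter (P : Subgroup G), m ψ ≠ 0 → ψ.1 1 = 1 := by
      intro ψ hmψ
      have h1 := hbig ψ hmψ
      have h2 : Cfsg.charDegree ψ.1 ∣ p ^ (Nat.card G).factorization p := by
        rw [← hPcard]; exact charDegree_dvd_card ψ.2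
      obtain ⟨k, -, hk⟩ := (Nat.dvd_prime_pow hp).mp h2
      have hk0 : k = 0 := by
        by_contra hk0
        have : p ≤ p ^ k := Nat.le_self_pow hk0 p
        omega
      rw [char_one_eq_charDegree (isCharacter_of_isIrrCharacter ψ.2), hk, hk0]
      simp
    have hcomm : ∀ a b : (P : Subgroup G), a * b = b * a := by
      intro a b
      have h1 : (fun x : (P : Subgroup G) => χ.1 x) (a * b * a⁻¹ * b⁻¹) =
          (fun x : (P : Subgroup G) => χ.1 x) 1 := by
        rw [hexp]
        simp only [Finset.sum_apply, Pi.smul_apply, smul_eq_mul]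
        refine Finset.sum_congr rfl (fun ψ _ => ?_)
        by_cases hmψ : m ψ = 0
        · rw [hmψ]; simp
        · have hψ1 := hlin ψ hmψ
          have hψc := isCharacter_of_isIrrCharacter ψ.2
          rw [Cfsg.Agent.Lib.Helper15.linChar_mul hψc hψ1,
            Cfsg.Agent.Lib.Helper15.linChar_mul hψc hψ1,
            Cfsg.Agent.Lib.Helper15.linChar_mul hψc hψ1,
            Cfsg.Agent.Lib.Helper15.linChar_inv hψc hψ1,
            Cfsg.Agent.Lib.Helper15.linChar_inv hψc hψ1, hψ1]
          have ha := Cfsg.Agent.Lib.Helper15.linChar_ne_zero hψc hψ1 a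
          have hb := Cfsg.Agent.Lib.Helper15.linChar_ne_zero hψc hψ1 b
          field_simp
      have h2 := hfaith _ h1
      have h3 : a * b * a⁻¹ * b⁻¹ = 1 := Subtype.ext h2
      calc a * b = (a * b * a⁻¹ * b⁻¹) * (b * a) := by group
        _ = b * a := by rw [h3, one_mul]
    have hvan' : ∀ z : (P : Subgroup G), z ≠ 1 → χ.1 (z : G) = 0 := by
      intro z hz1
      exact hvan z (Subgroup.mem_center_iff.mpr (fun g => hcomm g z)) hz1
    obtain ⟨m₀, hm₀⟩ := classInner_nat hφ (isCharacter_one (G := (P : Subgroup G)))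
    unfold Cfsg.classInner at hm₀
    have hS : ∑ x : (P : Subgroup G), χ.1 (x : G) * conj ((fun _ => (1 : ℂ)) x) = (p : ℂ) := by
      rw [Finset.sum_eq_single (1 : (P : Subgroup G))]
      · simp only [map_one, mul_one]
        exact hdeg
      · intro z _ hz1
        rw [hvan' z hz1, zero_mul]
      · intro h
        exact absurd (Finset.mem_univ _) h
    rw [hS] at hm₀
    have hcardne : (Nat.card (P : Subgroup G) : ℂ) ≠ 0 := by
      exact_mod_cast (Nat.card_pos (α := (P : Subgroup G))).ne'
    have h1 : (p : ℂ) = (Nat.card (P : Subgroup G) : ℂ) * m₀ := by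
      rw [← hm₀, ← mul_assoc, mul_inv_cancel₀ hcardne, one_mul]
    have h2 : p = Nat.card (P : Subgroup G) * m₀ := by exact_mod_cast h1
    have h3 : p ^ 2 ∣ p := hPdvd.trans ⟨m₀, h2⟩
    have h4 : p ^ 2 ≤ p := Nat.le_of_dvd hp.pos h3
    have h5 : 1 < p := hp.one_lt
    nlinarith

end PrimeDegCenter

end Cfsg.Agent.Lib.Helper80
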